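/-
A search and a count.
-/
import Cfsg.Agent.Lib.LeechP.Fam.MaSys

set_option autoImplicit false
set_option maxRecDepth 100000

namespace Cfsg.Agent.Lib.LeechP

open Cfsg Cfsg.Agent.Lib.Golay Cfsg.Agent.Lib.Golay.Leech Cfsg.Agent.Lib.LeechX Cfsg.Agent.Lib.M24

def oGS : ℕ := 9619777205192823184503923729340014051747552176105704694794335497246851094441877672926487701270326767908153196560
def oGR : ℕ := 9619777205472795549315407243384212601916408131135294265746085424551891692727169463385135366612721987794867585040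
def oGF : ℕ := 400
theorem oG_fv : FV oGS oGR oGF := fv_of (by decide +kernel) (by decide +kernel) (by decide +kernel)
theorem oG_le : sqNorm (dec oGS) ≤ 256 := by decide +kernel
noncomputable def oGT : BT := orbitT (actMv cANf) cAGm 15 (saltN oGS)
def oGTs : ℕ → Bool := (tA (tD gVR gVF 0 0) (tA (tD gWR gWF 16 0) (tD gQR gQF 8 0)))
theorem oG_sp : Sp oGTs (fun x => dotInt (dec gVS) x = 0 ∧ dotInt (dec gWS) x = 16 ∧ dotInt (dec gQS) x = 8) := (sp_tA (sp_tD gV_fv 0 0 (by norm_num)) (sp_tA (sp_tD gW_fv 16 0 (by norm_num)) (sp_tD gQ_fv 8 0 (by norm_num))))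
theorem oG_cnt : cntMin oGTs = 1232 := by decide +kernel
theorem oG_scan : cntMin (scanF oGTs oGT cANf) = 0 := by decide +kernel
theorem oG_card : (QS (fun x => dotInt (dec gVS) x = 0 ∧ dotInt (dec gWS) x = 16 ∧ dotInt (dec gQS) x = 8)).ncard = 1232 := ncard_QS oG_sp oG_cnt
theorem oG_reach {x : ↥leechLattice} (hx : x ∈ QS (fun x => dotInt (dec gVS) x = 0 ∧ dotInt (dec gWS) x = 16 ∧ dotInt (dec gQS) x = 8)) : ∃ g ∈ Fx cAL, g • bv oG_fv = x :=
  reach_QS cA_sys oG_le oG_fv.val rfl rfl oG_sp oG_scan hx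

end Cfsg.Agent.Lib.LeechP
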