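/-
A search and a count.
-/
import Cfsg.Agent.Lib.LeechP.Fam.MaSys

set_option autoImplicit false
set_option maxRecDepth 100000

namespace Cfsg.Agent.Lib.LeechP

open Cfsg Cfsg.Agent.Lib.Golay Cfsg.Agent.Lib.Golay.Leech Cfsg.Agent.Lib.LeechX Cfsg.Agent.Lib.M24

def oES : ℕ := 9619777205192823184503923729340014051747552122185811347938852437139414791240640417832124209704651766693196988432
def oER : ℕ := 9619777205192831728582437715465750741355557324452469961064235840945114499447784695469707735377917305542537117712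
def oEF : ℕ := 392
theorem oE_fv : FV oES oER oEF := fv_of (by decide +kernel) (by decide +kernel) (by decide +kernel)
theorem oE_le : sqNorm (dec oES) ≤ 256 := by decide +kernel
noncomputable def oET : BT := orbitT (actMv cANf) cAGm 14 (saltN oES)
def oETs : ℕ → Bool := (tA (tD gVR gVF 0 0) (tA (tD gWR gWF 16 0) (tD gQR gQF 0 0)))
theorem oE_sp : Sp oETs (fun x => dotInt (dec gVS) x = 0 ∧ dotInt (dec gWS) x = 16 ∧ dotInt (dec gQS) x = 0) := (sp_tA (sp_tD gV_fv 0 0 (by norm_num)) (sp_tA (sp_tD gW_fv 16 0 (by norm_num)) (sp_tD gQ_fv 0 0 (by norm_num))))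
theorem oE_cnt : cntMin oETs = 330 := by decide +kernel
theorem oE_scan : cntMin (scanF oETs oET cANf) = 0 := by decide +kernel
theorem oE_card : (QS (fun x => dotInt (dec gVS) x = 0 ∧ dotInt (dec gWS) x = 16 ∧ dotInt (dec gQS) x = 0)).ncard = 330 := ncard_QS oE_sp oE_cnt
theorem oE_reach {x : ↥leechLattice} (hx : x ∈ QS (fun x => dotInt (dec gVS) x = 0 ∧ dotInt (dec gWS) x = 16 ∧ dotInt (dec gQS) x = 0)) : ∃ g ∈ Fx cAL, g • bv oE_fv = x :=
  reach_QS cA_sys oE_le oE_fv.val rfl rfl oE_sp oE_scan hx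

end Cfsg.Agent.Lib.LeechP
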