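/-
A search and a count.
-/
import Cfsg.Agent.Lib.LeechP.Fam.MaSys

set_option autoImplicit false
set_option maxRecDepth 100000

namespace Cfsg.Agent.Lib.LeechP

open Cfsg Cfsg.Agent.Lib.Golay Cfsg.Agent.Lib.Golay.Leech Cfsg.Agent.Lib.LeechX Cfsg.Agent.Lib.M24

def oFS : ℕ := 9619777205192823184503923729340014051747552122185811347938852437139414791240640417832124209630864790398358519824
def oFR : ℕ := 9619740509214975887307881639846018798443324055354443066258962062329064388641054290954098211896213994335814811664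
def oFF : ℕ := 384
theorem oF_fv : FV oFS oFR oFF := fv_of (by decide +kernel) (by decide +kernel) (by decide +kernel)
theorem oF_le : sqNorm (dec oFS) ≤ 256 := by decide +kernel
noncomputable def oFT : BT := orbitT (actMv cANf) cAGm 15 (saltN oFS)
def oFTs : ℕ → Bool := (tA (tD gVR gVF 0 0) (tA (tD gWR gWF 16 0) (tD gQR gQF 16 0)))
theorem oF_sp : Sp oFTs (fun x => dotInt (dec gVS) x = 0 ∧ dotInt (dec gWS) x = 16 ∧ dotInt (dec gQS) x = 16) := (sp_tA (sp_tD gV_fv 0 0 (by norm_num)) (sp_tA (sp_tD gW_fv 16 0 (by norm_num)) (sp_tD gQ_fv 16 0 (by norm_num))))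
theorem oF_cnt : cntMin oFTs = 462 := by decide +kernel
theorem oF_scan : cntMin (scanF oFTs oFT cANf) = 0 := by decide +kernel
theorem oF_card : (QS (fun x => dotInt (dec gVS) x = 0 ∧ dotInt (dec gWS) x = 16 ∧ dotInt (dec gQS) x = 16)).ncard = 462 := ncard_QS oF_sp oF_cnt
theorem oF_reach {x : ↥leechLattice} (hx : x ∈ QS (fun x => dotInt (dec gVS) x = 0 ∧ dotInt (dec gWS) x = 16 ∧ dotInt (dec gQS) x = 16)) : ∃ g ∈ Fx cAL, g • bv oF_fv = x :=
  reach_QS cA_sys oF_le oF_fv.val rfl rfl oF_sp oF_scan hx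

end Cfsg.Agent.Lib.LeechP
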