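/-
A search and a count.
-/
import Cfsg.Agent.Lib.LeechP.Fam.MbSys

set_option autoImplicit false
set_option maxRecDepth 100000

namespace Cfsg.Agent.Lib.LeechP

open Cfsg Cfsg.Agent.Lib.Golay Cfsg.Agent.Lib.Golay.Leech Cfsg.Agent.Lib.LeechX Cfsg.Agent.Lib.M24

def oNS : ℕ := 9619777205192823184503923729340014051747552122185811360493055910835779593574035485248543776960291704837007081490
def oNR : ℕ := 10822249355841926082566913200845865887918664570278533061127820391379470826444917571392327773494363776785495097360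
def oNF : ℕ := 400
theorem oN_fv : FV oNS oNR oNF := fv_of (by decide +kernel) (by decide +kernel) (by decide +kernel)
theorem oN_le : sqNorm (dec oNS) ≤ 256 := by decide +kernel
noncomputable def oNT : BT := orbitT (actMv cBNf) cBGm 9 (saltN oNS)
def oNTs : ℕ → Bool := (tA (tD gUR gUF 24 0) (tA (tD gKR gKF 0 24) (tD gYR gYF 8 0)))
theorem oN_sp : Sp oNTs (fun x => dotInt (dec gUS) x = 24 ∧ dotInt (dec gKS) x = -24 ∧ dotInt (dec gYS) x = 8) := (sp_tA (sp_tD gU_fv 24 0 (by norm_num)) (sp_tA (sp_tD gK_fv 0 24 (by norm_num)) (sp_tD gY_fv 8 0 (by norm_num))))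
theorem oN_cnt : cntMin oNTs = 22 := by decide +kernel
theorem oN_scan : cntMin (scanF oNTs oNT cBNf) = 0 := by decide +kernel
theorem oN_card : (QS (fun x => dotInt (dec gUS) x = 24 ∧ dotInt (dec gKS) x = -24 ∧ dotInt (dec gYS) x = 8)).ncard = 22 := ncard_QS oN_sp oN_cnt
theorem oN_reach {x : ↥leechLattice} (hx : x ∈ QS (fun x => dotInt (dec gUS) x = 24 ∧ dotInt (dec gKS) x = -24 ∧ dotInt (dec gYS) x = 8)) : ∃ g ∈ Fx cBL, g • bv oN_fv = x :=
  reach_QS cB_sys oN_le oN_fv.val rfl rfl oN_sp oN_scan hx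

end Cfsg.Agent.Lib.LeechP
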