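/-
A search and a count.
-/
import Cfsg.Agent.Lib.LeechP.Fam.MbSys

set_option autoImplicit false
set_option maxRecDepth 100000

namespace Cfsg.Agent.Lib.LeechP

open Cfsg Cfsg.Agent.Lib.Golay Cfsg.Agent.Lib.Golay.Leech Cfsg.Agent.Lib.LeechX Cfsg.Agent.Lib.M24

def oOS : ℕ := 12024684809953228409862751860452295167780251052267930895543118391988396832957999463938951983976867942303060197392
def oOR : ℕ := 9619777205192831728452067412980343631834376800394269758756941863750494579407071706711027332193063756346799685652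
def oOF : ℕ := 392
theorem oO_fv : FV oOS oOR oOF := fv_of (by decide +kernel) (by decide +kernel) (by decide +kernel)
theorem oO_le : sqNorm (dec oOS) ≤ 256 := by decide +kernel
noncomputable def oOT : BT := orbitT (actMv cBNf) cBGm 13 (saltN oOS)
def oOTs : ℕ → Bool := (tA (tD gUR gUF 24 0) (tA (tD gKR gKF 0 24) (tD gYR gYF 16 0)))
theorem oO_sp : Sp oOTs (fun x => dotInt (dec gUS) x = 24 ∧ dotInt (dec gKS) x = -24 ∧ dotInt (dec gYS) x = 16) := (sp_tA (sp_tD gU_fv 24 0 (by norm_num)) (sp_tA (sp_tD gK_fv 0 24 (by norm_num)) (sp_tD gY_fv 16 0 (by norm_num))))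
theorem oO_cnt : cntMin oOTs = 77 := by decide +kernel
theorem oO_scan : cntMin (scanF oOTs oOT cBNf) = 0 := by decide +kernel
theorem oO_card : (QS (fun x => dotInt (dec gUS) x = 24 ∧ dotInt (dec gKS) x = -24 ∧ dotInt (dec gYS) x = 16)).ncard = 77 := ncard_QS oO_sp oO_cnt
theorem oO_reach {x : ↥leechLattice} (hx : x ∈ QS (fun x => dotInt (dec gUS) x = 24 ∧ dotInt (dec gKS) x = -24 ∧ dotInt (dec gYS) x = 16)) : ∃ g ∈ Fx cBL, g • bv oO_fv = x :=
  reach_QS cB_sys oO_le oO_fv.val rfl rfl oO_sp oO_scan hx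

end Cfsg.Agent.Lib.LeechP
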