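/-
The vectors of the configurations.
-/
import Cfsg.Agent.Lib.LeechP.Fam

set_option autoImplicit false
set_option maxRecDepth 100000

namespace Cfsg.Agent.Lib.LeechP

open Cfsg Cfsg.Agent.Lib.Golay Cfsg.Agent.Lib.Golay.Leech Cfsg.Agent.Lib.LeechX Cfsg.Agent.Lib.M24

theorem fv_of {a ra fa : ℕ} (h : latOK a = true) (h1 : revP a = ra) (h2 : coefP onesP a = fa) : FV a ra fa :=
  ⟨(lat_of_latOK h).1, (lat_of_latOK h).2, h1, h2⟩

def gVS : ℕ := 12024684809953228409862751860452295167780251052267930895543118391988396832957999463938951983976866816403153354772
def gVR : ℕ := 12024684809953228409862751860452295167780251052267930895543118391988396832957999463938951983976866816403153354772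
def gVF : ℕ := 392
theorem gV_fv : FV gVS gVR gVF := fv_of (by decide +kernel) (by decide +kernel) (by decide +kernel)
theorem gV_le : sqNorm (dec gVS) ≤ 256 := by decide +kernel
def gWS : ℕ := 9619777205192823184503923729340014051747552122185811360493055910835779593574035485248543776960291704837006819342
def gWR : ℕ := 8417305055103665016063899296599259938494912895156586821025574635109058593961541109528570878851510862869808807952
def gWF : ℕ := 392
theorem gW_fv : FV gWS gWR gWF := fv_of (by decide +kernel) (by decide +kernel) (by decide +kernel)
theorem gW_le : sqNorm (dec gWS) ≤ 256 := by decide +kernel
def gUS : ℕ := 12024684809953228409862751860452295167780251052267930908097321865684761635291394531355371551306294856741708234770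
def gUR : ℕ := 10822212659864070241422727427711541054527611825238706368629840589958040635678900155635398653197514014774510223380
def gUF : ℕ := 400
theorem gU_fv : FV gUS gUR gUF := fv_of (by decide +kernel) (by decide +kernel) (by decide +kernel)
theorem gU_le : sqNorm (dec gUS) ≤ 256 := by decide +kernel
def gHS : ℕ := 9619777205192823184503923729340014051747552122185811347938852437139414791240640417832124209630863664498452201484
def gHR : ℕ := 7214906296410273800289281371362057769105905937143518492832566283711862940289298787482225555581710274604735397904
def gHF : ℕ := 384
theorem gH_fv : FV gHS gHR gHF := fv_of (by decide +kernel) (by decide +kernel) (by decide +kernel)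
theorem gH_le : sqNorm (dec gHS) ≤ 256 := by decide +kernel
def gKS : ℕ := 7214869600432417959145095598227732935714853192103691787780383008594067947189886304308876867955432472255195381778
def gKR : ℕ := 10822212659304125511799762388946443331609138604175209182354150437748340797753722310378748420113366704116110196748
def gKF : ℕ := 368
theorem gK_fv : FV gKS gKR gKF := fv_of (by decide +kernel) (by decide +kernel) (by decide +kernel)
theorem gK_le : sqNorm (dec gKS) ≤ 256 := by decide +kernel
def gPS : ℕ := 12024684809953228409862751860452295167780251052267930895543118391988396832957999463938951983976866816403153092624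
def gPR : ℕ := 9619740509214967343359737956205689218356499377145984655440872635717984600474623002075195089334013902487467065364
def gPF : ℕ := 384
theorem gP_fv : FV gPS gPR gPF := fv_of (by decide +kernel) (by decide +kernel) (by decide +kernel)
theorem gP_le : sqNorm (dec gPS) ≤ 256 := by decide +kernel
def gQS : ℕ := 9619777205192823184503923729340014051747552122185811347938852437139414791240640417832124209630863664515631546384
def gQR : ℕ := 9619740509774903528904189008845049788498610446676396029749535019442981875715570969870235325679233275805368844304
def gQF : ℕ := 384
theorem gQ_fv : FV gQS gQR gQF := fv_of (by decide +kernel) (by decide +kernel) (by decide +kernel)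
theorem gQ_le : sqNorm (dec gQS) ≤ 256 := by decide +kernel
def gYS : ℕ := 12024684809953228409862751860452295167780251052267930895543118391988396832957999463938951983976866816420333223952
def gYR : ℕ := 9619777205752759370048374781979374621889663191716222722247514820864412066481588385627164445976083037816353718292
def gYF : ℕ := 392
theorem gY_fv : FV gYS gYR gYF := fv_of (by decide +kernel) (by decide +kernel) (by decide +kernel)
theorem gY_le : sqNorm (dec gYS) ≤ 256 := by decide +kernel

end Cfsg.Agent.Lib.LeechP
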