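/-
A search and a count.
-/
import Cfsg.Agent.Lib.LeechP.Fam.Co3Sys

set_option autoImplicit false
set_option maxRecDepth 100000

namespace Cfsg.Agent.Lib.LeechP

open Cfsg Cfsg.Agent.Lib.Golay Cfsg.Agent.Lib.Golay.Leech Cfsg.Agent.Lib.LeechX Cfsg.Agent.Lib.M24

def oHS : ℕ := 9619777205192823184503923729340014051747552122185811347938852437139414791240640417832124209630863664498452201484
def oHR : ℕ := 7214906296410273800289281371362057769105905937143518492832566283711862940289298787482225555581710274604735397904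
def oHF : ℕ := 384
theorem oH_fv : FV oHS oHR oHF := fv_of (by decide +kernel) (by decide +kernel) (by decide +kernel)
theorem oH_le : sqNorm (dec oHS) ≤ 256 := by decide +kernel
noncomputable def oHT : BT := orbitT (actMv cCNf) cCGm 19 (saltN oHS)
def oHTs : ℕ → Bool := (tD gUR gUF 0 16)
theorem oH_sp : Sp oHTs (fun x => dotInt (dec gUS) x = -16) := (sp_tD gU_fv 0 16 (by norm_num))
theorem oH_cnt : cntMin oHTs = 11178 := by decide +kernel
theorem oH_scan : cntMin (scanF oHTs oHT cCNf) = 0 := by decide +kernel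
theorem oH_card : (QS (fun x => dotInt (dec gUS) x = -16)).ncard = 11178 := ncard_QS oH_sp oH_cnt
theorem oH_reach {x : ↥leechLattice} (hx : x ∈ QS (fun x => dotInt (dec gUS) x = -16)) : ∃ g ∈ Fx cCL, g • bv oH_fv = x :=
  reach_QS cC_sys oH_le oH_fv.val rfl rfl oH_sp oH_scan hx

end Cfsg.Agent.Lib.LeechP
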