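/-
Exclusions of inner products.
-/
import Cfsg.Agent.Lib.LeechP.FamGen
import Cfsg.Agent.Lib.LeechP.Fam.Base

set_option autoImplicit false
set_option maxRecDepth 100000

namespace Cfsg.Agent.Lib.LeechP

open Cfsg Cfsg.Agent.Lib.Golay Cfsg.Agent.Lib.Golay.Leech Cfsg.Agent.Lib.LeechX Cfsg.Agent.Lib.M24

def eUTs : ℕ → Bool := (tA (tD gUR gUF 24 0) (tA (tD gVR gVF 16 0) (tA (tNot (tD gPR gPF 8 0)) (tA (tNot (tD gPR gPF 16 0)) (tNot (tD gPR gPF 32 0))))))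
theorem eU_cnt : cntMin eUTs = 0 := by decide +kernel
theorem eU_none (x : ↥leechLattice) : x ∉ QS (fun x => dotInt (dec gUS) x = 24 ∧ dotInt (dec gVS) x = 16 ∧ ¬ dotInt (dec gPS) x = 8 ∧ ¬ dotInt (dec gPS) x = 16 ∧ ¬ dotInt (dec gPS) x = 32) := none_QS (sp_tA (sp_tD gU_fv 24 0 (by norm_num)) (sp_tA (sp_tD gV_fv 16 0 (by norm_num)) (sp_tA (sp_tNot (sp_tD gP_fv 8 0 (by norm_num))) (sp_tA (sp_tNot (sp_tD gP_fv 16 0 (by norm_num))) (sp_tNot (sp_tD gP_fv 32 0 (by norm_num))))))) eU_cnt x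

def eBTs : ℕ → Bool := (tA (tD gUR gUF 24 0) (tA (tD gKR gKF 0 24) (tA (tNot (tD gYR gYF 8 0)) (tA (tNot (tD gYR gYF 16 0)) (tNot (tD gYR gYF 32 0))))))
theorem eB_cnt : cntMin eBTs = 0 := by decide +kernel
theorem eB_none (x : ↥leechLattice) : x ∉ QS (fun x => dotInt (dec gUS) x = 24 ∧ dotInt (dec gKS) x = -24 ∧ ¬ dotInt (dec gYS) x = 8 ∧ ¬ dotInt (dec gYS) x = 16 ∧ ¬ dotInt (dec gYS) x = 32) := none_QS (sp_tA (sp_tD gU_fv 24 0 (by norm_num)) (sp_tA (sp_tD gK_fv 0 24 (by norm_num)) (sp_tA (sp_tNot (sp_tD gY_fv 8 0 (by norm_num))) (sp_tA (sp_tNot (sp_tD gY_fv 16 0 (by norm_num))) (sp_tNot (sp_tD gY_fv 32 0 (by norm_num))))))) eB_cnt x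

def eHTs : ℕ → Bool := (tA (tD gUR gUF 0 16) (tA (tNot (tD gHR gHF 0 8)) (tA (tNot (tD gHR gHF 16 0)) (tA (tNot (tD gHR gHF 0 0)) (tA (tNot (tD gHR gHF 8 0)) (tNot (tD gHR gHF 32 0)))))))
theorem eH_cnt : cntMin eHTs = 0 := by decide +kernel
theorem eH_none (x : ↥leechLattice) : x ∉ QS (fun x => dotInt (dec gUS) x = -16 ∧ ¬ dotInt (dec gHS) x = -8 ∧ ¬ dotInt (dec gHS) x = 16 ∧ ¬ dotInt (dec gHS) x = 0 ∧ ¬ dotInt (dec gHS) x = 8 ∧ ¬ dotInt (dec gHS) x = 32) := none_QS (sp_tA (sp_tD gU_fv 0 16 (by norm_num)) (sp_tA (sp_tNot (sp_tD gH_fv 0 8 (by norm_num))) (sp_tA (sp_tNot (sp_tD gH_fv 16 0 (by norm_num))) (sp_tA (sp_tNot (sp_tD gH_fv 0 0 (by norm_num))) (sp_tA (sp_tNot (sp_tD gH_fv 8 0 (by norm_num))) (sp_tNot (sp_tD gH_fv 32 0 (by norm_num)))))))) eH_cnt x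


end Cfsg.Agent.Lib.LeechP
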