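/-
A search and a count.
-/
import Cfsg.Agent.Lib.LeechP.Fam.HSSys

set_option autoImplicit false
set_option maxRecDepth 100000

namespace Cfsg.Agent.Lib.LeechP

open Cfsg Cfsg.Agent.Lib.Golay Cfsg.Agent.Lib.Golay.Leech Cfsg.Agent.Lib.LeechX Cfsg.Agent.Lib.M24

def oMS : ℕ := 12024684809953228409862751860452295167780251052267930895543118391988396832957999463938951983976866816420333223952
def oMR : ℕ := 9619777205752759370048374781979374621889663191716222722247514820864412066481588385627164445976083037816353718292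
def oMF : ℕ := 392
theorem oM_fv : FV oMS oMR oMF := fv_of (by decide +kernel) (by decide +kernel) (by decide +kernel)
theorem oM_le : sqNorm (dec oMS) ≤ 256 := by decide +kernel
noncomputable def oMT : BT := orbitT (actMv cHNf) cHGm 14 (saltN oMS)
def oMTs : ℕ → Bool := (tA (tD gUR gUF 24 0) (tD gKR gKF 0 24))
theorem oM_sp : Sp oMTs (fun x => dotInt (dec gUS) x = 24 ∧ dotInt (dec gKS) x = -24) := (sp_tA (sp_tD gU_fv 24 0 (by norm_num)) (sp_tD gK_fv 0 24 (by norm_num)))
theorem oM_cnt : cntMin oMTs = 100 := by decide +kernel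
theorem oM_scan : cntMin (scanF oMTs oMT cHNf) = 0 := by decide +kernel
theorem oM_card : (QS (fun x => dotInt (dec gUS) x = 24 ∧ dotInt (dec gKS) x = -24)).ncard = 100 := ncard_QS oM_sp oM_cnt
theorem oM_reach {x : ↥leechLattice} (hx : x ∈ QS (fun x => dotInt (dec gUS) x = 24 ∧ dotInt (dec gKS) x = -24)) : ∃ g ∈ Fx cHL, g • bv oM_fv = x :=
  reach_QS cH_sys oM_le oM_fv.val rfl rfl oM_sp oM_scan hx

end Cfsg.Agent.Lib.LeechP
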