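/-
A search and a count.
-/
import Cfsg.Agent.Lib.LeechP.Fam.McLSys

set_option autoImplicit false
set_option maxRecDepth 100000

namespace Cfsg.Agent.Lib.LeechP

open Cfsg Cfsg.Agent.Lib.Golay Cfsg.Agent.Lib.Golay.Leech Cfsg.Agent.Lib.LeechX Cfsg.Agent.Lib.M24

def oBS : ℕ := 9619777205192823184503923729340014051747552122185811347938852437139414791240640417832124209630863664515631546384
def oBR : ℕ := 9619740509774903528904189008845049788498610446676396029749535019442981875715570969870235325679233275805368844304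
def oBF : ℕ := 384
theorem oB_fv : FV oBS oBR oBF := fv_of (by decide +kernel) (by decide +kernel) (by decide +kernel)
theorem oB_le : sqNorm (dec oBS) ≤ 256 := by decide +kernel
noncomputable def oBT : BT := orbitT (actMv cMNf) cMGm 16 (saltN oBS)
def oBTs : ℕ → Bool := (tA (tD gVR gVF 0 0) (tD gWR gWF 16 0))
theorem oB_sp : Sp oBTs (fun x => dotInt (dec gVS) x = 0 ∧ dotInt (dec gWS) x = 16) := (sp_tA (sp_tD gV_fv 0 0 (by norm_num)) (sp_tD gW_fv 16 0 (by norm_num)))
theorem oB_cnt : cntMin oBTs = 2025 := by decide +kernel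
theorem oB_scan : cntMin (scanF oBTs oBT cMNf) = 0 := by decide +kernel
theorem oB_card : (QS (fun x => dotInt (dec gVS) x = 0 ∧ dotInt (dec gWS) x = 16)).ncard = 2025 := ncard_QS oB_sp oB_cnt
theorem oB_reach {x : ↥leechLattice} (hx : x ∈ QS (fun x => dotInt (dec gVS) x = 0 ∧ dotInt (dec gWS) x = 16)) : ∃ g ∈ Fx cML, g • bv oB_fv = x :=
  reach_QS cM_sys oB_le oB_fv.val rfl rfl oB_sp oB_scan hx

end Cfsg.Agent.Lib.LeechP
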