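/-
A search and a count.
-/
import Cfsg.Agent.Lib.LeechP.Fam.McLSys

set_option autoImplicit false
set_option maxRecDepth 100000

namespace Cfsg.Agent.Lib.LeechP

open Cfsg Cfsg.Agent.Lib.Golay Cfsg.Agent.Lib.Golay.Leech Cfsg.Agent.Lib.LeechX Cfsg.Agent.Lib.M24

def oAS : ℕ := 12024684809953228409862751860452295167780251052267930895543118391988396832957999463938951983976866816403153092624
def oAR : ℕ := 9619740509214967343359737956205689218356499377145984655440872635717984600474623002075195089334013902487467065364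
def oAF : ℕ := 384
theorem oA_fv : FV oAS oAR oAF := fv_of (by decide +kernel) (by decide +kernel) (by decide +kernel)
theorem oA_le : sqNorm (dec oAS) ≤ 256 := by decide +kernel
noncomputable def oAT : BT := orbitT (actMv cMNf) cMGm 14 (saltN oAS)
def oATs : ℕ → Bool := (tA (tD gUR gUF 24 0) (tD gVR gVF 16 0))
theorem oA_sp : Sp oATs (fun x => dotInt (dec gUS) x = 24 ∧ dotInt (dec gVS) x = 16) := (sp_tA (sp_tD gU_fv 24 0 (by norm_num)) (sp_tD gV_fv 16 0 (by norm_num)))
theorem oA_cnt : cntMin oATs = 275 := by decide +kernel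
theorem oA_scan : cntMin (scanF oATs oAT cMNf) = 0 := by decide +kernel
theorem oA_card : (QS (fun x => dotInt (dec gUS) x = 24 ∧ dotInt (dec gVS) x = 16)).ncard = 275 := ncard_QS oA_sp oA_cnt
theorem oA_reach {x : ↥leechLattice} (hx : x ∈ QS (fun x => dotInt (dec gUS) x = 24 ∧ dotInt (dec gVS) x = 16)) : ∃ g ∈ Fx cML, g • bv oA_fv = x :=
  reach_QS cM_sys oA_le oA_fv.val rfl rfl oA_sp oA_scan hx

end Cfsg.Agent.Lib.LeechP
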