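/-
The base configurations of the search systems.
-/
import Cfsg.Agent.Lib.LeechP.FamGen
import Cfsg.Agent.Lib.LeechP.Fam.Excl
import Cfsg.Agent.Lib.LeechP.Fam.M275
import Cfsg.Agent.Lib.LeechP.Fam.M2025
import Cfsg.Agent.Lib.LeechP.Fam.C11178
import Cfsg.Agent.Lib.LeechP.Fam.H100

set_option autoImplicit false

namespace Cfsg.Agent.Lib.LeechP

open Cfsg Cfsg.Agent.Lib.Golay Cfsg.Agent.Lib.Golay.Leech Cfsg.Agent.Lib.LeechX Cfsg.Agent.Lib.M24

abbrev bU : ↥leechLattice := bv gU_fv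
abbrev bV : ↥leechLattice := bv gV_fv
abbrev bW : ↥leechLattice := bv gW_fv
abbrev bH : ↥leechLattice := bv gH_fv
abbrev bK : ↥leechLattice := bv gK_fv
abbrev bP : ↥leechLattice := bv gP_fv
abbrev bQ : ↥leechLattice := bv gQ_fv
abbrev bY : ↥leechLattice := bv gY_fv

theorem bU_eq : bV + bW = bU := Subtype.ext (by
  funext p
  show dec gVS p + dec gWS p = dec gUS p
  revert p
  decide +kernel)

theorem bK_eq : -bH - bU = bK := Subtype.ext (by
  funext p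
  show - dec gHS p - dec gUS p = dec gKS p
  revert p
  decide +kernel)

theorem bV_norm : sqNorm bV.1 = 32 := by
  show sqNorm (dec gVS) = 32
  decide +kernel

theorem bW_norm : sqNorm bW.1 = 32 := by
  show sqNorm (dec gWS) = 32
  decide +kernel

theorem bU_norm : sqNorm bU.1 = 48 := by
  show sqNorm (dec gUS) = 48
  decide +kernel

theorem bK_norm : sqNorm bK.1 = 48 := by
  show sqNorm (dec gKS) = 48
  decide +kernel

theorem bVW_dot : dotInt bV.1 bW.1 = -8 := by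
  show dotInt (dec gVS) (dec gWS) = -8
  decide +kernel

theorem bH_mem : bH ∈ S1 bU (-16) := by
  show sqNorm (dec gHS) = 32 ∧ dotInt (dec gUS) (dec gHS) = -16
  decide +kernel

theorem bP_mem : bP ∈ S2 bU 24 bV 16 := by
  show sqNorm (dec gPS) = 32 ∧ dotInt (dec gUS) (dec gPS) = 24 ∧ dotInt (dec gVS) (dec gPS) = 16
  decide +kernel

theorem bQ_mem : bQ ∈ S2 bV 0 bW 16 := by
  show sqNorm (dec gQS) = 32 ∧ dotInt (dec gVS) (dec gQS) = 0 ∧ dotInt (dec gWS) (dec gQS) = 16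
  decide +kernel

theorem bY_mem : bY ∈ S2 bU 24 bK (-24) := by
  show sqNorm (dec gYS) = 32 ∧ dotInt (dec gUS) (dec gYS) = 24 ∧ dotInt (dec gKS) (dec gYS) = -24
  decide +kernel

/-- Elements of the fixer of the first system. -/
theorem fixM {g : ↥Co0} (hg : g ∈ Fx cML) : g • bV = bV ∧ g • bW = bW ∧ g • bU = bU := by
  have h1 : g • bV = bV := fx_bv hg gV_fv (by simp [cML])
  have h2 : g • bW = bW := fx_bv hg gW_fv (by simp [cML])
  exact ⟨h1, h2, by rw [← bU_eq, smul_add', h1, h2]⟩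

theorem t275 : ∀ x ∈ S2 bU 24 bV 16, ∀ y ∈ S2 bU 24 bV 16, ∃ g : ↥Co0, g • bU = bU ∧ g • bV = bV ∧ g • x = y := by
  intro x hx y hy
  obtain ⟨g, hg, e⟩ := trans_QS (fun z hz => oA_reach hz) hx hy
  exact ⟨g, (fixM hg).2.2, (fixM hg).1, e⟩

theorem t2025 : ∀ x ∈ S2 bV 0 bW 16, ∀ y ∈ S2 bV 0 bW 16, ∃ g : ↥Co0, g • bV = bV ∧ g • bW = bW ∧ g • x = y := by
  intro x hx y hy
  obtain ⟨g, hg, e⟩ := trans_QS (fun z hz => oB_reach hz) hx hy
  exact ⟨g, (fixM hg).1, (fixM hg).2.1, e⟩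

theorem fixC {g : ↥Co0} (hg : g ∈ Fx cCL) : g • bU = bU := fx_bv hg gU_fv (by simp [cCL])

theorem t11178 : ∀ x ∈ S1 bU (-16), ∀ y ∈ S1 bU (-16), ∃ g : ↥Co0, g • bU = bU ∧ g • x = y := by
  intro x hx y hy
  obtain ⟨g, hg, e⟩ := trans_QS (fun z hz => oH_reach hz) hx hy
  exact ⟨g, fixC hg, e⟩

theorem fixH {g : ↥Co0} (hg : g ∈ Fx cHL) : g • bU = bU ∧ g • bH = bH ∧ g • bK = bK :=
  ⟨fx_bv hg gU_fv (by simp [cHL]), fx_bv hg gH_fv (by simp [cHL]), fx_bv hg gK_fv (by simp [cHL])⟩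

theorem t100 : ∀ x ∈ S2 bU 24 bK (-24), ∀ y ∈ S2 bU 24 bK (-24), ∃ g : ↥Co0, g • bU = bU ∧ g • bK = bK ∧ g • x = y := by
  intro x hx y hy
  obtain ⟨g, hg, e⟩ := trans_QS (fun z hz => oM_reach hz) hx hy
  exact ⟨g, (fixH hg).1, (fixH hg).2.2, e⟩

/-! ### Frames -/

theorem mcl_frame (u v : ↥leechLattice) (hu : sqNorm u.1 = 48) (hv : sqNorm v.1 = 32) (hw : sqNorm (u.1 - v.1) = 32) :
    ∃ a : ↥Co0, a • u = bU ∧ a • v = bV := by
  have hd : dotInt v.1 (u - v).1 = -8 := by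
    have h1 := (sub_norm_iff hu hv).1 hw
    show dotInt v.1 (u.1 - v.1) = -8
    rw [dot_sub_right, dot_self_eq, hv, dotInt_comm, h1]
    norm_num
  obtain ⟨a, h1, h2⟩ := pair_trans_b v (u - v) bV bW hv hw bV_norm bW_norm hd bVW_dot
  refine ⟨a, ?_, h1⟩
  have e : u = v + (u - v) := by simp
  rw [e, smul_add', h1, h2, bU_eq]

theorem mcl_frame3 (u v x : ↥leechLattice) (hu : sqNorm u.1 = 48) (hv : sqNorm v.1 = 32) (hw : sqNorm (u.1 - v.1) = 32)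
    (hx : x ∈ S2 u 24 v 16) : ∃ a : ↥Co0, a • u = bU ∧ a • v = bV ∧ a • x = bP := by
  obtain ⟨a, h1, h2⟩ := mcl_frame u v hu hv hw
  obtain ⟨g, g1, g2, g3⟩ := t275 _ ((S2_smul a h1 h2 24 16 x).1 hx) _ bP_mem
  exact ⟨g * a, by rw [mul_smul, h1, g1], by rw [mul_smul, h2, g2], by rw [mul_smul, g3]⟩

theorem m22_frame (v w x : ↥leechLattice) (hv : sqNorm v.1 = 32) (hw : sqNorm w.1 = 32) (hd : dotInt v.1 w.1 = -8)
    (hx : x ∈ S2 v 0 w 16) : ∃ a : ↥Co0, a • v = bV ∧ a • w = bW ∧ a • x = bQ := by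
  obtain ⟨a, h1, h2⟩ := pair_trans_b v w bV bW hv hw bV_norm bW_norm hd bVW_dot
  obtain ⟨g, g1, g2, g3⟩ := t2025 _ ((S2_smul a h1 h2 0 16 x).1 hx) _ bQ_mem
  exact ⟨g * a, by rw [mul_smul, h1, g1], by rw [mul_smul, h2, g2], by rw [mul_smul, g3]⟩

theorem co3_frame (u x : ↥leechLattice) (hu : sqNorm u.1 = 48) (hx : x ∈ S1 u (-16)) :
    ∃ a : ↥Co0, a • u = bU ∧ a • x = bH := by
  obtain ⟨a, h1⟩ := trans48 u bU hu bU_norm
  obtain ⟨g, g1, g2⟩ := t11178 _ ((S1_smul a h1 (-16) x).1 hx) _ bH_mem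
  exact ⟨g * a, by rw [mul_smul, h1, g1], by rw [mul_smul, g2]⟩

/-- The third vector of a pair of sum of squares 48 with inner product minus 32. -/
theorem pair_third {v w : ↥leechLattice} (hv : sqNorm v.1 = 48) (hw : sqNorm w.1 = 48) (hd : dotInt v.1 w.1 = -32) :
    -v - w ∈ S1 v (-16) := by
  have e : (-v - w).1 = -v.1 - w.1 := rfl
  constructor
  · rw [e, sqNorm_sub, sqNorm_neg, hv, hw]
    have : dotInt (-v.1) w.1 = - dotInt v.1 w.1 := by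
      simp only [dotInt, Pi.neg_apply, neg_mul, Finset.sum_neg_distrib]
    rw [this, hd]
    norm_num
  · show dotInt v.1 (-v - w).1 = -16
    rw [e, dot_sub_right]
    have : dotInt v.1 (-v.1) = - dotInt v.1 v.1 := by
      simp only [dotInt, Pi.neg_apply, mul_neg, Finset.sum_neg_distrib]
    rw [this, dot_self_eq, hv, hd]
    norm_num

theorem hs_frame (v w : ↥leechLattice) (hv : sqNorm v.1 = 48) (hw : sqNorm w.1 = 48) (hd : dotInt v.1 w.1 = -32) :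
    ∃ a : ↥Co0, a • v = bU ∧ a • w = bK := by
  obtain ⟨a, h1, h2⟩ := co3_frame v (-v - w) hv (pair_third hv hw hd)
  refine ⟨a, h1, ?_⟩
  have e : w = -(-v - w) - v := by abel
  rw [e, smul_sub', smul_neg', h1, h2, bK_eq]

theorem hs_frame3 (v w x : ↥leechLattice) (hv : sqNorm v.1 = 48) (hw : sqNorm w.1 = 48) (hd : dotInt v.1 w.1 = -32)
    (hx : x ∈ S2 v 24 w (-24)) : ∃ a : ↥Co0, a • v = bU ∧ a • w = bK ∧ a • x = bY := by
  obtain ⟨a, h1, h2⟩ := hs_frame v w hv hw hd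
  obtain ⟨g, g1, g2, g3⟩ := t100 _ ((S2_smul a h1 h2 24 (-24) x).1 hx) _ bY_mem
  exact ⟨g * a, by rw [mul_smul, h1, g1], by rw [mul_smul, h2, g2], by rw [mul_smul, g3]⟩

/-! ### Existence of vectors with a prescribed orbit -/

/-- A vector whose orbit under two fixers is a whole set. -/
theorem orbit2_ex {a : ↥Co0} {u v U V s : ↥leechLattice} (h1 : a • u = U) (h2 : a • v = V) {d e : ℤ} {N : ℕ}
    (hc : (S2 U d V e).ncard = N) (hs : s ∈ S2 U d V e)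
    (ht : ∀ x ∈ S2 U d V e, ∀ y ∈ S2 U d V e, ∃ g : ↥Co0, g • U = U ∧ g • V = V ∧ g • x = y) :
    ∃ y ∈ S2 u d v e, MulAction.orbit ↥(MulAction.stabilizer ↥Co0 u ⊓ MulAction.stabilizer ↥Co0 v) y = S2 u d v e ∧
      (S2 u d v e).ncard = N := by
  have hS := S2_smul a h1 h2 d e
  have hy : a⁻¹ • s ∈ S2 u d v e := (hS _).2 (by rwa [smul_inv_smul])
  exact ⟨_, hy, orbit2 hy (tr2 h1 h2 hS ht), (ncard_smul a hS).trans hc⟩

/-- A vector whose orbit under three fixers is a whole set. -/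
theorem orbit3_ex {a : ↥Co0} {u v w U V W s : ↥leechLattice} (h1 : a • u = U) (h2 : a • v = V) (h3 : a • w = W)
    {d e f : ℤ} {N : ℕ} (hc : (S3 U d V e W f).ncard = N) (hs : s ∈ S3 U d V e W f)
    (ht : ∀ x ∈ S3 U d V e W f, ∀ y ∈ S3 U d V e W f, ∃ g : ↥Co0, g • U = U ∧ g • V = V ∧ g • W = W ∧ g • x = y) :
    ∃ y ∈ S3 u d v e w f, MulAction.orbit ↥(MulAction.stabilizer ↥Co0 u ⊓ MulAction.stabilizer ↥Co0 v ⊓ MulAction.stabilizer ↥Co0 w) y
        = S3 u d v e w f ∧ (S3 u d v e w f).ncard = N := by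
  have hS := S3_smul a h1 h2 h3 d e f
  have hy : a⁻¹ • s ∈ S3 u d v e w f := (hS _).2 (by rwa [smul_inv_smul])
  exact ⟨_, hy, orbit3 hy (tr3 h1 h2 h3 hS ht), (ncard_smul a hS).trans hc⟩

end Cfsg.Agent.Lib.LeechP
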