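/-
Exclusions of inner products.
-/
import Cfsg.Agent.Lib.LeechP.FamGen
import Cfsg.Agent.Lib.LeechP.Fam.JSys

set_option autoImplicit false
set_option maxRecDepth 100000

namespace Cfsg.Agent.Lib.LeechP

open Cfsg Cfsg.Agent.Lib.Golay Cfsg.Agent.Lib.Golay.Leech Cfsg.Agent.Lib.LeechX Cfsg.Agent.Lib.M24

def eJTs : ℕ → Bool := (tA (tD gUR gUF 0 16) (tA (tD gHR gHF 16 0) (tA (tNot (tD oJR oJF 16 0)) (tA (tNot (tD oJR oJF 0 0)) (tA (tNot (tD oJR oJF 8 0)) (tNot (tD oJR oJF 32 0))))))) 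
theorem eJ_cnt : cntMin eJTs = 0 := by decide +kernel
theorem eJ_none (x : ↥leechLattice) : x ∉ QS (fun x => dotInt (dec gUS) x = -16 ∧ dotInt (dec gHS) x = 16 ∧ ¬ dotInt (dec oJS) x = 16 ∧ ¬ dotInt (dec oJS) x = 0 ∧ ¬ dotInt (dec oJS) x = 8 ∧ ¬ dotInt (dec oJS) x = 32) := none_QS (sp_tA (sp_tD gU_fv 0 16 (by norm_num)) (sp_tA (sp_tD gH_fv 16 0 (by norm_num)) (sp_tA (sp_tNot (sp_tD oJ_fv 16 0 (by norm_num))) (sp_tA (sp_tNot (sp_tD oJ_fv 0 0 (by norm_num))) (sp_tA (sp_tNot (sp_tD oJ_fv 8 0 (by norm_num))) (sp_tNot (sp_tD oJ_fv 32 0 (by norm_num)))))))) eJ_cnt x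

end Cfsg.Agent.Lib.LeechP
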