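/-
Exclusions of inner products.
-/
import Cfsg.Agent.Lib.LeechP.FamGen
import Cfsg.Agent.Lib.LeechP.Fam.Base

set_option autoImplicit false
set_option maxRecDepth 100000

namespace Cfsg.Agent.Lib.LeechP

open Cfsg Cfsg.Agent.Lib.Golay Cfsg.Agent.Lib.Golay.Leech Cfsg.Agent.Lib.LeechX Cfsg.Agent.Lib.M24

def eKTs : ℕ → Bool := (tA (tD gVR gVF 0 8) (tA (tNot (tD gWR gWF 0 16)) (tA (tNot (tD gWR gWF 16 0)) (tA (tNot (tD gWR gWF 0 8)) (tA (tNot (tD gWR gWF 8 0)) (tA (tNot (tD gWR gWF 0 0)) (tNot (tD gWR gWF 32 0)))))))) 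
theorem eK_cnt : cntMin eKTs = 0 := by decide +kernel
theorem eK_none (x : ↥leechLattice) : x ∉ QS (fun x => dotInt (dec gVS) x = -8 ∧ ¬ dotInt (dec gWS) x = -16 ∧ ¬ dotInt (dec gWS) x = 16 ∧ ¬ dotInt (dec gWS) x = -8 ∧ ¬ dotInt (dec gWS) x = 8 ∧ ¬ dotInt (dec gWS) x = 0 ∧ ¬ dotInt (dec gWS) x = 32) := none_QS (sp_tA (sp_tD gV_fv 0 8 (by norm_num)) (sp_tA (sp_tNot (sp_tD gW_fv 0 16 (by norm_num))) (sp_tA (sp_tNot (sp_tD gW_fv 16 0 (by norm_num))) (sp_tA (sp_tNot (sp_tD gW_fv 0 8 (by norm_num))) (sp_tA (sp_tNot (sp_tD gW_fv 8 0 (by norm_num))) (sp_tA (sp_tNot (sp_tD gW_fv 0 0 (by norm_num))) (sp_tNot (sp_tD gW_fv 32 0 (by norm_num))))))))) eK_cnt x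

end Cfsg.Agent.Lib.LeechP
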