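/-
A search and a count.
-/
import Cfsg.Agent.Lib.LeechP.Fam.HSSys

set_option autoImplicit false
set_option maxRecDepth 100000

namespace Cfsg.Agent.Lib.LeechP

open Cfsg Cfsg.Agent.Lib.Golay Cfsg.Agent.Lib.Golay.Leech Cfsg.Agent.Lib.LeechX Cfsg.Agent.Lib.M24

def oJS : ℕ := 9619777205192823184503923729340014051747552122185811347938852437139414791240640417832124209630863664481272070156
def oJR : ℕ := 7214869599872481773600644545588372365572742122573280426025924098565435474282333403930256198939641139275848744976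
def oJF : ℕ := 376
theorem oJ_fv : FV oJS oJR oJF := fv_of (by decide +kernel) (by decide +kernel) (by decide +kernel)
theorem oJ_le : sqNorm (dec oJS) ≤ 256 := by decide +kernel
noncomputable def oJT : BT := orbitT (actMv cHNf) cHGm 16 (saltN oJS)
def oJTs : ℕ → Bool := (tA (tD gUR gUF 0 16) (tD gHR gHF 16 0))
theorem oJ_sp : Sp oJTs (fun x => dotInt (dec gUS) x = -16 ∧ dotInt (dec gHS) x = 16) := (sp_tA (sp_tD gU_fv 0 16 (by norm_num)) (sp_tD gH_fv 16 0 (by norm_num)))
theorem oJ_cnt : cntMin oJTs = 1100 := by decide +kernel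
theorem oJ_scan : cntMin (scanF oJTs oJT cHNf) = 0 := by decide +kernel
theorem oJ_card : (QS (fun x => dotInt (dec gUS) x = -16 ∧ dotInt (dec gHS) x = 16)).ncard = 1100 := ncard_QS oJ_sp oJ_cnt
theorem oJ_reach {x : ↥leechLattice} (hx : x ∈ QS (fun x => dotInt (dec gUS) x = -16 ∧ dotInt (dec gHS) x = 16)) : ∃ g ∈ Fx cHL, g • bv oJ_fv = x :=
  reach_QS cH_sys oJ_le oJ_fv.val rfl rfl oJ_sp oJ_scan hx

end Cfsg.Agent.Lib.LeechP
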