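/-
A search and a count.
-/
import Cfsg.Agent.Lib.LeechP.Fam.HSSys

set_option autoImplicit false
set_option maxRecDepth 100000

namespace Cfsg.Agent.Lib.LeechP

open Cfsg Cfsg.Agent.Lib.Golay Cfsg.Agent.Lib.Golay.Leech Cfsg.Agent.Lib.LeechX Cfsg.Agent.Lib.M24

def oIS : ℕ := 8417323402812620571824509663783873493731202657144751574136911018734528731827449851908193188516522807913937371154
def oIR : ℕ := 10822231007293057704345928111995420690226053609562797183497289044226826655664319354709252812080802092985294520334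
def oIF : ℕ := 384
theorem oI_fv : FV oIS oIR oIF := fv_of (by decide +kernel) (by decide +kernel) (by decide +kernel)
theorem oI_le : sqNorm (dec oIS) ≤ 256 := by decide +kernel
noncomputable def oIT : BT := orbitT (actMv cHNf) cHGm 14 (saltN oIS)
def oITs : ℕ → Bool := (tA (tD gUR gUF 0 16) (tD gHR gHF 0 8))
theorem oI_sp : Sp oITs (fun x => dotInt (dec gUS) x = -16 ∧ dotInt (dec gHS) x = -8) := (sp_tA (sp_tD gU_fv 0 16 (by norm_num)) (sp_tD gH_fv 0 8 (by norm_num)))
theorem oI_cnt : cntMin oITs = 352 := by decide +kernel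
theorem oI_scan : cntMin (scanF oITs oIT cHNf) = 0 := by decide +kernel
theorem oI_card : (QS (fun x => dotInt (dec gUS) x = -16 ∧ dotInt (dec gHS) x = -8)).ncard = 352 := ncard_QS oI_sp oI_cnt
theorem oI_reach {x : ↥leechLattice} (hx : x ∈ QS (fun x => dotInt (dec gUS) x = -16 ∧ dotInt (dec gHS) x = -8)) : ∃ g ∈ Fx cHL, g • bv oI_fv = x :=
  reach_QS cH_sys oI_le oI_fv.val rfl rfl oI_sp oI_scan hx

end Cfsg.Agent.Lib.LeechP
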