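/-
A search and a count.
-/
import Cfsg.Agent.Lib.LeechP.Fam.HSSys

set_option autoImplicit false
set_option maxRecDepth 100000

namespace Cfsg.Agent.Lib.LeechP

open Cfsg Cfsg.Agent.Lib.Golay Cfsg.Agent.Lib.Golay.Leech Cfsg.Agent.Lib.LeechX Cfsg.Agent.Lib.M24

def oKS : ℕ := 9619777205192823184503923729340014051747552122185811347938852437139414791240640417832124209630862538581365227536
def oKR : ℕ := 9619777204632878455011328993060323901518616374446941562812100626803337727833261161158180850723444199332202414096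
def oKF : ℕ := 376
theorem oK_fv : FV oKS oKR oKF := fv_of (by decide +kernel) (by decide +kernel) (by decide +kernel)
theorem oK_le : sqNorm (dec oKS) ≤ 256 := by decide +kernel
noncomputable def oKT : BT := orbitT (actMv cHNf) cHGm 18 (saltN oKS)
def oKTs : ℕ → Bool := (tA (tD gUR gUF 0 16) (tD gHR gHF 0 0))
theorem oK_sp : Sp oKTs (fun x => dotInt (dec gUS) x = -16 ∧ dotInt (dec gHS) x = 0) := (sp_tA (sp_tD gU_fv 0 16 (by norm_num)) (sp_tD gH_fv 0 0 (by norm_num)))
theorem oK_cnt : cntMin oKTs = 4125 := by decide +kernel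
theorem oK_scan : cntMin (scanF oKTs oKT cHNf) = 0 := by decide +kernel
theorem oK_card : (QS (fun x => dotInt (dec gUS) x = -16 ∧ dotInt (dec gHS) x = 0)).ncard = 4125 := ncard_QS oK_sp oK_cnt
theorem oK_reach {x : ↥leechLattice} (hx : x ∈ QS (fun x => dotInt (dec gUS) x = -16 ∧ dotInt (dec gHS) x = 0)) : ∃ g ∈ Fx cHL, g • bv oK_fv = x :=
  reach_QS cH_sys oK_le oK_fv.val rfl rfl oK_sp oK_scan hx

end Cfsg.Agent.Lib.LeechP
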