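/-
A search and a count.
-/
import Cfsg.Agent.Lib.LeechP.Fam.HSSys

set_option autoImplicit false
set_option maxRecDepth 100000

namespace Cfsg.Agent.Lib.LeechP

open Cfsg Cfsg.Agent.Lib.Golay Cfsg.Agent.Lib.Golay.Leech Cfsg.Agent.Lib.LeechX Cfsg.Agent.Lib.M24

def oLS : ℕ := 9619777205192823184503923729340014051747552122186634100217704602103100512619778620304883875249848731319623876624
def oLR : ℕ := 9619795552901778740264533101878155018998269742172250188042509311870330439569207772682776837967678153898719182864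
def oLF : ℕ := 384
theorem oL_fv : FV oLS oLR oLF := fv_of (by decide +kernel) (by decide +kernel) (by decide +kernel)
theorem oL_le : sqNorm (dec oLS) ≤ 256 := by decide +kernel
noncomputable def oLT : BT := orbitT (actMv cHNf) cHGm 18 (saltN oLS)
def oLTs : ℕ → Bool := (tA (tD gUR gUF 0 16) (tD gHR gHF 8 0))
theorem oL_sp : Sp oLTs (fun x => dotInt (dec gUS) x = -16 ∧ dotInt (dec gHS) x = 8) := (sp_tA (sp_tD gU_fv 0 16 (by norm_num)) (sp_tD gH_fv 8 0 (by norm_num)))
theorem oL_cnt : cntMin oLTs = 5600 := by decide +kernel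
theorem oL_scan : cntMin (scanF oLTs oLT cHNf) = 0 := by decide +kernel
theorem oL_card : (QS (fun x => dotInt (dec gUS) x = -16 ∧ dotInt (dec gHS) x = 8)).ncard = 5600 := ncard_QS oL_sp oL_cnt
theorem oL_reach {x : ↥leechLattice} (hx : x ∈ QS (fun x => dotInt (dec gUS) x = -16 ∧ dotInt (dec gHS) x = 8)) : ∃ g ∈ Fx cHL, g • bv oL_fv = x :=
  reach_QS cH_sys oL_le oL_fv.val rfl rfl oL_sp oL_scan hx

end Cfsg.Agent.Lib.LeechP
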