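/-
The configurations of the third Conway group and the Higman--Sims group.
-/
import Cfsg.Agent.Lib.LeechP.Fam.Cfg
import Cfsg.Agent.Lib.LeechP.Fam.H352
import Cfsg.Agent.Lib.LeechP.Fam.H1100
import Cfsg.Agent.Lib.LeechP.Fam.H4125
import Cfsg.Agent.Lib.LeechP.Fam.H5600
import Cfsg.Agent.Lib.LeechP.Fam.B22
import Cfsg.Agent.Lib.LeechP.Fam.B77

set_option autoImplicit false

namespace Cfsg.Agent.Lib.LeechP

open Cfsg Cfsg.Agent.Lib.Golay Cfsg.Agent.Lib.Golay.Leech Cfsg.Agent.Lib.LeechX Cfsg.Agent.Lib.M24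

theorem s1640_main (u : ↥leechLattice) (hu : sqNorm u.1 = 48) :
    (S1 u (-16)).ncard = 11178 ∧ ∀ x ∈ S1 u (-16), ∀ y ∈ S1 u (-16), ∃ g : ↥Co0, g • u = u ∧ g • x = y := by
  obtain ⟨a, h1⟩ := trans48 u bU hu bU_norm
  have hS := S1_smul a h1 (-16)
  exact ⟨(ncard_smul a hS).trans oH_card, tr1 h1 hS t11178⟩

theorem t352 : ∀ x ∈ S2 bU (-16) bH (-8), ∀ y ∈ S2 bU (-16) bH (-8), ∃ g : ↥Co0, g • bU = bU ∧ g • bH = bH ∧ g • x = y := by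
  intro x hx y hy
  obtain ⟨g, hg, e⟩ := trans_QS (fun z hz => oI_reach hz) hx hy
  exact ⟨g, (fixH hg).1, (fixH hg).2.1, e⟩

theorem t1100 : ∀ x ∈ S2 bU (-16) bH 16, ∀ y ∈ S2 bU (-16) bH 16, ∃ g : ↥Co0, g • bU = bU ∧ g • bH = bH ∧ g • x = y := by
  intro x hx y hy
  obtain ⟨g, hg, e⟩ := trans_QS (fun z hz => oJ_reach hz) hx hy
  exact ⟨g, (fixH hg).1, (fixH hg).2.1, e⟩

theorem t4125 : ∀ x ∈ S2 bU (-16) bH 0, ∀ y ∈ S2 bU (-16) bH 0, ∃ g : ↥Co0, g • bU = bU ∧ g • bH = bH ∧ g • x = y := by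
  intro x hx y hy
  obtain ⟨g, hg, e⟩ := trans_QS (fun z hz => oK_reach hz) hx hy
  exact ⟨g, (fixH hg).1, (fixH hg).2.1, e⟩

theorem t5600 : ∀ x ∈ S2 bU (-16) bH 8, ∀ y ∈ S2 bU (-16) bH 8, ∃ g : ↥Co0, g • bU = bU ∧ g • bH = bH ∧ g • x = y := by
  intro x hx y hy
  obtain ⟨g, hg, e⟩ := trans_QS (fun z hz => oL_reach hz) hx hy
  exact ⟨g, (fixH hg).1, (fixH hg).2.1, e⟩

theorem oI_mem : bv oI_fv ∈ S2 bU (-16) bH (-8) := by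
  show sqNorm (dec oIS) = 32 ∧ dotInt (dec gUS) (dec oIS) = -16 ∧ dotInt (dec gHS) (dec oIS) = -8
  decide +kernel

theorem oJ_mem : bv oJ_fv ∈ S2 bU (-16) bH 16 := by
  show sqNorm (dec oJS) = 32 ∧ dotInt (dec gUS) (dec oJS) = -16 ∧ dotInt (dec gHS) (dec oJS) = 16
  decide +kernel

theorem oK_mem : bv oK_fv ∈ S2 bU (-16) bH 0 := by
  show sqNorm (dec oKS) = 32 ∧ dotInt (dec gUS) (dec oKS) = -16 ∧ dotInt (dec gHS) (dec oKS) = 0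
  decide +kernel

theorem oL_mem : bv oL_fv ∈ S2 bU (-16) bH 8 := by
  show sqNorm (dec oLS) = 32 ∧ dotInt (dec gUS) (dec oLS) = -16 ∧ dotInt (dec gHS) (dec oLS) = 8
  decide +kernel

theorem excl_H (y : ↥leechLattice) (hy : y ∈ S1 bU (-16)) :
    dotInt bH.1 y.1 = -8 ∨ dotInt bH.1 y.1 = 16 ∨ dotInt bH.1 y.1 = 0 ∨ dotInt bH.1 y.1 = 8 ∨ dotInt bH.1 y.1 = 32 := by
  by_contra h
  push Not at h
  exact eH_none y ⟨hy.1, hy.2, h.1, h.2.1, h.2.2.1, h.2.2.2.1, h.2.2.2.2⟩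

theorem s1641_main (u x : ↥leechLattice) (hu : sqNorm u.1 = 48) (hx : x ∈ S1 u (-16)) :
    ∃ y₁ ∈ S1 u (-16), ∃ y₂ ∈ S1 u (-16), ∃ y₃ ∈ S1 u (-16), ∃ y₄ ∈ S1 u (-16),
      (MulAction.orbit ↥(MulAction.stabilizer ↥Co0 u ⊓ MulAction.stabilizer ↥Co0 x) y₁).ncard = 352 ∧
      (MulAction.orbit ↥(MulAction.stabilizer ↥Co0 u ⊓ MulAction.stabilizer ↥Co0 x) y₂).ncard = 1100 ∧
      (MulAction.orbit ↥(MulAction.stabilizer ↥Co0 u ⊓ MulAction.stabilizer ↥Co0 x) y₃).ncard = 4125 ∧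
      (MulAction.orbit ↥(MulAction.stabilizer ↥Co0 u ⊓ MulAction.stabilizer ↥Co0 x) y₄).ncard = 5600 ∧
      S1 u (-16) = {x} ∪ MulAction.orbit ↥(MulAction.stabilizer ↥Co0 u ⊓ MulAction.stabilizer ↥Co0 x) y₁ ∪
        MulAction.orbit ↥(MulAction.stabilizer ↥Co0 u ⊓ MulAction.stabilizer ↥Co0 x) y₂ ∪
        MulAction.orbit ↥(MulAction.stabilizer ↥Co0 u ⊓ MulAction.stabilizer ↥Co0 x) y₃ ∪
        MulAction.orbit ↥(MulAction.stabilizer ↥Co0 u ⊓ MulAction.stabilizer ↥Co0 x) y₄ := by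
  obtain ⟨b, b1, b2⟩ := co3_frame u x hu hx
  obtain ⟨y₁, hy₁, e₁, c₁⟩ := orbit2_ex b1 b2 oI_card oI_mem t352
  obtain ⟨y₂, hy₂, e₂, c₂⟩ := orbit2_ex b1 b2 oJ_card oJ_mem t1100
  obtain ⟨y₃, hy₃, e₃, c₃⟩ := orbit2_ex b1 b2 oK_card oK_mem t4125
  obtain ⟨y₄, hy₄, e₄, c₄⟩ := orbit2_ex b1 b2 oL_card oL_mem t5600
  refine ⟨y₁, ⟨hy₁.1, hy₁.2.1⟩, y₂, ⟨hy₂.1, hy₂.2.1⟩, y₃, ⟨hy₃.1, hy₃.2.1⟩, y₄, ⟨hy₄.1, hy₄.2.1⟩, ?_, ?_, ?_, ?_, ?_⟩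
  · rw [e₁, c₁]
  · rw [e₂, c₂]
  · rw [e₃, c₃]
  · rw [e₄, c₄]
  · rw [e₁, e₂, e₃, e₄]
    ext z
    simp only [Set.mem_union, Set.mem_singleton_iff]
    constructor
    · intro hz
      have := excl_H _ ((S1_smul b b1 (-16) z).1 hz)
      rw [← b2, dot_smul] at this
      rcases this with h | h | h | h | h
      · exact Or.inl (Or.inl (Or.inl (Or.inr ⟨hz.1, hz.2, h⟩)))
      · exact Or.inl (Or.inl (Or.inr ⟨hz.1, hz.2, h⟩))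
      · exact Or.inl (Or.inr ⟨hz.1, hz.2, h⟩)
      · exact Or.inr ⟨hz.1, hz.2, h⟩
      · exact Or.inl (Or.inl (Or.inl (Or.inl (eq_of_dot32 hx.1 hz.1 h).symm)))
    · rintro (((( rfl | h) | h) | h) | h)
      · exact hx
      · exact ⟨h.1, h.2.1⟩
      · exact ⟨h.1, h.2.1⟩
      · exact ⟨h.1, h.2.1⟩
      · exact ⟨h.1, h.2.1⟩

theorem s1583_main (v w : ↥leechLattice) (hv : sqNorm v.1 = 48) (hw : sqNorm w.1 = 48) (hd : dotInt v.1 w.1 = -32) :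
    (S2 v 24 w (-24)).ncard = 100 ∧ ∀ x ∈ S2 v 24 w (-24), ∀ y ∈ S2 v 24 w (-24), ∃ g : ↥Co0, g • v = v ∧ g • w = w ∧ g • x = y := by
  obtain ⟨a, h1, h2⟩ := hs_frame v w hv hw hd
  have hS := S2_smul a h1 h2 24 (-24)
  exact ⟨(ncard_smul a hS).trans oM_card, tr2 h1 h2 hS t100⟩

/-- The fixers of the last system. -/
theorem fixB3 {g : ↥Co0} (hg : g ∈ Fx cBL) : g • bU = bU ∧ g • bK = bK ∧ g • bY = bY :=
  ⟨fx_bv hg gU_fv (by simp [cBL]), fx_bv hg gK_fv (by simp [cBL]), fx_bv hg gY_fv (by simp [cBL])⟩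

theorem t22 : ∀ x ∈ S3 bU 24 bK (-24) bY 8, ∀ y ∈ S3 bU 24 bK (-24) bY 8, ∃ g : ↥Co0, g • bU = bU ∧ g • bK = bK ∧ g • bY = bY ∧ g • x = y := by
  intro x hx y hy
  obtain ⟨g, hg, e⟩ := trans_QS (fun z hz => oN_reach hz) hx hy
  exact ⟨g, (fixB3 hg).1, (fixB3 hg).2.1, (fixB3 hg).2.2, e⟩

theorem t77 : ∀ x ∈ S3 bU 24 bK (-24) bY 16, ∀ y ∈ S3 bU 24 bK (-24) bY 16, ∃ g : ↥Co0, g • bU = bU ∧ g • bK = bK ∧ g • bY = bY ∧ g • x = y := by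
  intro x hx y hy
  obtain ⟨g, hg, e⟩ := trans_QS (fun z hz => oO_reach hz) hx hy
  exact ⟨g, (fixB3 hg).1, (fixB3 hg).2.1, (fixB3 hg).2.2, e⟩

theorem excl_B (y : ↥leechLattice) (hy : y ∈ S2 bU 24 bK (-24)) :
    dotInt bY.1 y.1 = 8 ∨ dotInt bY.1 y.1 = 16 ∨ dotInt bY.1 y.1 = 32 := by
  by_contra h
  push Not at h
  exact eB_none y ⟨hy.1, hy.2.1, hy.2.2, h.1, h.2.1, h.2.2⟩

theorem s1584_main (v w x : ↥leechLattice) (hv : sqNorm v.1 = 48) (hw : sqNorm w.1 = 48) (hd : dotInt v.1 w.1 = -32)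
    (hx : x ∈ S2 v 24 w (-24)) : (S3 v 24 w (-24) x 8).ncard = 22 ∧ (S3 v 24 w (-24) x 16).ncard = 77 ∧
      (∀ y ∈ S2 v 24 w (-24), y ≠ x → dotInt x.1 y.1 = 8 ∨ dotInt x.1 y.1 = 16) ∧
      ∀ y ∈ S2 v 24 w (-24), ∀ y' ∈ S2 v 24 w (-24), y ≠ x → y' ≠ x → (dotInt x.1 y.1 = 8 ↔ dotInt x.1 y'.1 = 8) →
        ∃ g : ↥Co0, g • v = v ∧ g • w = w ∧ g • x = x ∧ g • y = y' := by
  obtain ⟨a, h1, h2, h3⟩ := hs_frame3 v w x hv hw hd hx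
  have hS8 := S3_smul a h1 h2 h3 24 (-24) 8
  have hS16 := S3_smul a h1 h2 h3 24 (-24) 16
  have key : ∀ y ∈ S2 v 24 w (-24), y ≠ x → dotInt x.1 y.1 = 8 ∨ dotInt x.1 y.1 = 16 := by
    intro y hy hne
    have := excl_B _ ((S2_smul a h1 h2 24 (-24) y).1 hy)
    rw [← h3, dot_smul] at this
    rcases this with h | h | h
    · exact Or.inl h
    · exact Or.inr h
    · exact absurd (eq_of_dot32 hx.1 hy.1 h).symm hne
  refine ⟨(ncard_smul a hS8).trans oN_card, (ncard_smul a hS16).trans oO_card, key, ?_⟩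
  intro y hy y' hy' hne hne' hdd
  rcases key y hy hne with h | h
  · exact tr3 h1 h2 h3 hS8 t22 y ⟨hy.1, hy.2.1, hy.2.2, h⟩ y' ⟨hy'.1, hy'.2.1, hy'.2.2, hdd.1 h⟩
  · rcases key y' hy' hne' with h' | h'
    · have := hdd.2 h'
      rw [h] at this
      norm_num at this
    · exact tr3 h1 h2 h3 hS16 t77 y ⟨hy.1, hy.2.1, hy.2.2, h⟩ y' ⟨hy'.1, hy'.2.1, hy'.2.2, h'⟩

/-- Two vectors of sum of squares 48 with inner product minus 32 are exchanged. -/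
theorem s1585_main (v w : ↥leechLattice) (hv : sqNorm v.1 = 48) (hw : sqNorm w.1 = 48) (hd : dotInt v.1 w.1 = -32) :
    ∃ g : ↥Co0, g • v = w ∧ g • w = v := by
  obtain ⟨a, h1⟩ := trans48 v w hv hw
  have hd' : dotInt w.1 (a • w).1 = -32 := by
    have e1 := dot_smul a v w
    rw [h1] at e1
    rw [e1, hd]
  have hw' : sqNorm (a • w).1 = 48 := by
    rw [norm_smul, hw]
  have hd2 : dotInt w.1 v.1 = -32 := by
    rw [dotInt_comm, hd]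
  have m1 := pair_third hw hw' hd'
  have m2 := pair_third hw hv hd2
  obtain ⟨h, h2, h3⟩ := (s1640_main w hw).2 _ m1 _ m2
  refine ⟨h * a, by rw [mul_smul, h1, h2], ?_⟩
  rw [mul_smul]
  have e : h • (a • w) = v := by
    have e1 := congrArg (fun z => -w - z) (show h • (-w - a • w) = -w - v from h3)
    simp only [smul_sub', smul_neg', h2] at h3
    have h4 : -w - h • a • w = -w - v := h3
    exact sub_right_injective h4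
  exact e

end Cfsg.Agent.Lib.LeechP
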