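/-
A fixed-point-free involution.
-/
import Cfsg.Agent.Lib.LeechP.FamGen
import Cfsg.Agent.Lib.LeechP.Fam.Base

set_option autoImplicit false
set_option maxRecDepth 100000

namespace Cfsg.Agent.Lib.LeechP

open Cfsg Cfsg.Agent.Lib.Golay Cfsg.Agent.Lib.Golay.Leech Cfsg.Agent.Lib.LeechX Cfsg.Agent.Lib.M24

def iR : List Row := [(6613523436334381892181406357719234606119715314864135289753338807077120123446537157270484251318901401998340849673, 3008), (1803781618769283123752121641763322040836422944779549579540766500222016421543853896570686943220594622210907766793, 3008), (5411124677640990676537159729598735728276550380623082450610132973492818192808734057628519598940144179670770319371, 3136), (5411124677640990676537159729598735728269482992363968913291799777643839968060703750729953242070051012195339796491, 3136), (4208652527551832508097134302226685896167606603144824331238286665595730402635073824619477504591516794823159250953, 3008), (4208652527551832507966763999741278786646426079088269608379906952896631599414533846840246176499238495390177886213, 3008), (5411124677640990676537159729629089929710510009097085505585917260560216779262817020925837643328301897029448433671, 3136), (4208652527551832508097136291519631072145818275410680728795028244556952900432947300537982989766299045446673694729, 3264), (5411124678200926862081610782238096298411594061894380287600079043329627321771803272266703921541273541700290412551, 3136), (4208652527551832507966763999741278323478069237661629078141204890770816362249766405829023665795747799259333197833,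 3008), (4208652527551832507966765989034224425792994700615616716214736214111019347180593537778629090680197886830893793289, 3264), (5411124677640990676537157740305790089122914262995189657405880202997182979914902197952778006453882476507670315015, 2880), (4208652527551832507966763999741278323471001741564374401886423793573878838209367873469128495522150337850221461513, 3008), (4208652527551823964018620316070595005118574384145049125818785778873832291909642687951220267432155777705267625993, 3008), (5411124677640990676406789427143682820189329377199098634675680986658237385271809301183965160677295223833610485771, 3136), (4208652527551823964018620316100948743391244451613383998720939415222988450523828573653065207712619677415555661833, 3008), (4208652526991896322552683249587324862857138584349631237537277305572467863312932322420401303496401489496398823433, 3008), (6613596828290093574469777903987884272901820804943788674749298409919980504978571988150517191798486225271958994953, 3008), (4208652527551823964018620316100948743391244559454816196988843611748703801589844282778330250604627097882232029193, 3008), (5411124677640999220354933110753658198842194534773340659120928422909278060934473126936171621924727511709085138951, 3136), (4208652526991896322422312947101918216497247729136885885906556299187297633673010653146703413892742898298065977353, 3008), (4208652526991896322422312947071563551894931043559959972601593993050438359576635998481494852844727069321579659273,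 3008), (4208652527551832507966765989003869761176543346358604867209555441008189125619407980021852810632813153451472519177, 2752), (5411124678200935406029752476585480239351850118573846111135191192001409595742748508539053191560695011246774747147, 3392)]
theorem iR_chk : matChk [gUS, gHS, gKS] iR (trR iR) = true := by decide +kernel
theorem iR_good : goodLB [gUS, gHS, gKS] = true := by decide +kernel
theorem iR_tr : trR iR = iR := by decide +kernel
theorem iR_ok : rowsOK iR = true := by decide +kernel
/-- The test of a fixed vector. -/
noncomputable def iTs (m : ℕ) : Bool := Nat.beq (evalM iR (un m)) (un m)
theorem i_cnt : cntMin (tA (tA (tD gUR gUF 24 0) (tD gKR gKF 0 24)) iTs) = 0 := by decide +kernel

end Cfsg.Agent.Lib.LeechP
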