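/-
A fixed-point-free involution of the Higman--Sims group on its hundred points.
-/
import Cfsg.Agent.Lib.LeechP.Fam.Cfg
import Cfsg.Agent.Lib.LeechP.Fam.Inv

set_option autoImplicit false

namespace Cfsg.Agent.Lib.LeechP

open Cfsg Cfsg.Agent.Lib.Golay Cfsg.Agent.Lib.Golay.Leech Cfsg.Agent.Lib.LeechX Cfsg.Agent.Lib.M24

theorem inv_base : ∃ g : ↥Co0, g • bU = bU ∧ g • bK = bK ∧ g * g = 1 ∧ g ≠ 1 ∧ ∀ x ∈ S2 bU 24 bK (-24), g • x ≠ x := by
  have hc := iR_chk
  simp only [matChk, Bool.and_eq_true] at hc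
  obtain ⟨g, hg1, hg2⟩ := exists_co hc.1
  have hL := goodL_of _ iR_good
  have hfix : ∀ m ∈ [gUS, gHS, gKS], ∀ hd : dec m ∈ leechLattice, g.1 ⟨dec m, hd⟩ = ⟨dec m, hd⟩ := by
    intro m hm hd
    have h1 := Nat.eq_of_beq_eq_true (allL_spec hc.2 m hm)
    have h2 := evalM_spec iR_ok hg1 (hL m hm).1 hd (hL m hm).2
    rw [h1] at h2
    exact Subtype.ext h2.2.symm
  rw [iR_tr] at hg2
  have hinv : g⁻¹ = g := by
    apply co0_ext
    intro v i
    have h1 := hg1 v i
    have h2 := hg2 v i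
    have h3 : 8 * (g⁻¹.1 v).1 i = 8 * (g.1 v).1 i := by rw [h1, h2]
    omega
  have hfree : ∀ x ∈ S2 bU 24 bK (-24), g • x ≠ x := by
    intro x hx e
    have key := forall_min (Q := fun y => sqNorm y = 32 → dotInt (dec gUS) y = 24 → dotInt (dec gKS) y = -24 →
        ∀ hy : y ∈ leechLattice, g.1 ⟨y, hy⟩ ≠ ⟨y, hy⟩)
      (p := tA (tA (tD gUR gUF 24 0) (tD gKR gKF 0 24)) iTs) (fun n hn hp h1 h2 h3 hy e' => by
        have e1 : tD gUR gUF 24 0 (saltN n) = true := by
          rw [tD_iff gU_fv.val gU_fv.rev gU_fv.sum hn, h2]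
          norm_num
        have e2 : tD gKR gKF 0 24 (saltN n) = true := by
          rw [tD_iff gK_fv.val gK_fv.rev gK_fv.sum hn, h3]
          norm_num
        have e3 : iTs (saltN n) = true := by
          have h5 := evalM_spec iR_ok hg1 hn hy (by rw [h1]; norm_num)
          rw [e'] at h5
          have h6 := dec_inj h5.1 hn h5.2
          unfold iTs
          rw [un_salt, h6]
          exact Nat.beq_refl _
        simp only [tA, e1, e2, e3, Bool.and_self] at hp
        exact Bool.noConfusion hp) i_cnt x.2 hx.1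
    exact key hx.1 hx.2.1 hx.2.2 x.2 e
  refine ⟨g, hfix _ (by simp) _, hfix _ (by simp) _, ?_, ?_, hfree⟩
  · nth_rewrite 1 [← hinv]
    exact inv_mul_cancel g
  · intro h1
    apply hfree _ bY_mem
    rw [h1, one_smul]

theorem s1642_main (v w : ↥leechLattice) (hv : sqNorm v.1 = 48) (hw : sqNorm w.1 = 48) (hd : dotInt v.1 w.1 = -32) :
    ∃ g : ↥Co0, g • v = v ∧ g • w = w ∧ orderOf g = 2 ∧ ∀ x ∈ S2 v 24 w (-24), g • x ≠ x := by
  obtain ⟨a, h1, h2⟩ := hs_frame v w hv hw hd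
  obtain ⟨g, g1, g2, g3, g4, g5⟩ := inv_base
  have hS := S2_smul a h1 h2 24 (-24)
  refine ⟨a⁻¹ * g * a, conj_fix h1 g1, conj_fix h2 g2, ?_, ?_⟩
  · apply orderOf_eq_prime
    · rw [pow_two]
      calc a⁻¹ * g * a * (a⁻¹ * g * a) = a⁻¹ * (g * g) * a := by group
        _ = 1 := by rw [g3]; group
    · intro h
      apply g4
      have : g = a * (a⁻¹ * g * a) * a⁻¹ := by group
      rw [this, h]
      group
  · intro x hx e
    apply g5 _ ((hS x).1 hx)
    have e2 := congrArg (fun z => a • z) e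
    simp only [mul_smul, smul_inv_smul] at e2
    exact e2

end Cfsg.Agent.Lib.LeechP
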