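/-
A search and a count.
-/
import Cfsg.Agent.Lib.LeechP.Fam.JSys

set_option autoImplicit false
set_option maxRecDepth 100000

namespace Cfsg.Agent.Lib.LeechP

open Cfsg Cfsg.Agent.Lib.Golay Cfsg.Agent.Lib.Golay.Leech Cfsg.Agent.Lib.LeechX Cfsg.Agent.Lib.M24

def oPS : ℕ := 8417323402812620571824509663768696393010689094858299943688381128922749792912604707494639275073992144411002273806
def oPR : ℕ := 8417341751081512313194755240204078585881087914561145108489315638070251413116395999782550256713728613309519757326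
def oPF : ℕ := 376
theorem oP_fv : FV oPS oPR oPF := fv_of (by decide +kernel) (by decide +kernel) (by decide +kernel)
theorem oP_le : sqNorm (dec oPS) ≤ 256 := by decide +kernel
noncomputable def oPT : BT := orbitT (actMv cJNf) cJGm 11 (saltN oPS)
def oPTs : ℕ → Bool := (tA (tD gUR gUF 0 16) (tA (tD gHR gHF 16 0) (tD oJR oJF 0 0)))
theorem oP_sp : Sp oPTs (fun x => dotInt (dec gUS) x = -16 ∧ dotInt (dec gHS) x = 16 ∧ dotInt (dec oJS) x = 0) := (sp_tA (sp_tD gU_fv 0 16 (by norm_num)) (sp_tA (sp_tD gH_fv 16 0 (by norm_num)) (sp_tD oJ_fv 0 0 (by norm_num))))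
theorem oP_cnt : cntMin oPTs = 105 := by decide +kernel
theorem oP_scan : cntMin (scanF oPTs oPT cJNf) = 0 := by decide +kernel
theorem oP_card : (QS (fun x => dotInt (dec gUS) x = -16 ∧ dotInt (dec gHS) x = 16 ∧ dotInt (dec oJS) x = 0)).ncard = 105 := ncard_QS oP_sp oP_cnt
theorem oP_reach {x : ↥leechLattice} (hx : x ∈ QS (fun x => dotInt (dec gUS) x = -16 ∧ dotInt (dec gHS) x = 16 ∧ dotInt (dec oJS) x = 0)) : ∃ g ∈ Fx cJL, g • bv oP_fv = x :=
  reach_QS cJ_sys oP_le oP_fv.val rfl rfl oP_sp oP_scan hx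

end Cfsg.Agent.Lib.LeechP
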