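/-
Two parts separated by a search.
-/
import Cfsg.Agent.Lib.LeechP.FamGen
import Cfsg.Agent.Lib.LeechP.Fam.JSys

set_option autoImplicit false
set_option maxRecDepth 100000

namespace Cfsg.Agent.Lib.LeechP

open Cfsg Cfsg.Agent.Lib.Golay Cfsg.Agent.Lib.Golay.Leech Cfsg.Agent.Lib.LeechX Cfsg.Agent.Lib.M24

def oRS : ℕ := 9619777205192823184503923729340014051747552122185811347938852437139414791240640417832124209630862538598545096716
def oRR : ℕ := 7214869600432409415196951914587403355628028513895233389516497055679352961356850082846393312722660420745402777616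
def oRF : ℕ := 376
theorem oR_fv : FV oRS oRR oRF := fv_of (by decide +kernel) (by decide +kernel) (by decide +kernel)
theorem oR_le : sqNorm (dec oRS) ≤ 256 := by decide +kernel
def oTS : ℕ := 9018541130148244100283912010300461955266364598131894668474549679381283424141570272002272687911557103648297254925
def oTR : ℕ := 7816105675476997043365107317267285032192507022028874463418383250991159038163216327579380825526557475421322936335
def oTF : ℕ := 380
theorem oT_fv : FV oTS oTR oTF := fv_of (by decide +kernel) (by decide +kernel) (by decide +kernel)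
theorem oT_le : sqNorm (dec oTS) ≤ 256 := by decide +kernel
noncomputable def oRT : BT := orbitT (actMv cJNf) cJGm 10 (saltN oRS)
noncomputable def oTT : BT := orbitT (actMv cJNf) cJGm 14 (saltN oTS)
def oUTs : ℕ → Bool := (tA (tD gUR gUF 0 16) (tA (tD gHR gHF 16 0) (tD oJR oJF 16 0)))
/-- Membership in the first search. -/
noncomputable def oRq (m : ℕ) : Bool := inT oRT m
theorem oR_cnt : cntMin (tA oUTs oRq) = 42 := by decide +kernel
theorem oT_cnt : cntMin (tA oUTs (tNot oRq)) = 280 := by decide +kernel
theorem oT_scan : cntMin (scanF (tA oUTs (tNot oRq)) oTT cJNf) = 0 := by decide +kernel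

end Cfsg.Agent.Lib.LeechP
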