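/-
A search and a count.
-/
import Cfsg.Agent.Lib.LeechP.Fam.JSys

set_option autoImplicit false
set_option maxRecDepth 100000

namespace Cfsg.Agent.Lib.LeechP

open Cfsg Cfsg.Agent.Lib.Golay Cfsg.Agent.Lib.Golay.Leech Cfsg.Agent.Lib.LeechX Cfsg.Agent.Lib.M24

def oQS : ℕ := 9018559477857203928083778375901471035733372596568999100205617974663271647376354924839985386206682465659658502157
def oQR : ℕ := 7816105675756965136137332843586965317263562556793257398294053836909532315040198353977037351390342745854124818447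
def oQF : ℕ := 372
theorem oQ_fv : FV oQS oQR oQF := fv_of (by decide +kernel) (by decide +kernel) (by decide +kernel)
theorem oQ_le : sqNorm (dec oQS) ≤ 256 := by decide +kernel
noncomputable def oQT : BT := orbitT (actMv cJNf) cJGm 15 (saltN oQS)
def oQTs : ℕ → Bool := (tA (tD gUR gUF 0 16) (tA (tD gHR gHF 16 0) (tD oJR oJF 8 0)))
theorem oQ_sp : Sp oQTs (fun x => dotInt (dec gUS) x = -16 ∧ dotInt (dec gHS) x = 16 ∧ dotInt (dec oJS) x = 8) := (sp_tA (sp_tD gU_fv 0 16 (by norm_num)) (sp_tA (sp_tD gH_fv 16 0 (by norm_num)) (sp_tD oJ_fv 8 0 (by norm_num))))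
theorem oQ_cnt : cntMin oQTs = 672 := by decide +kernel
theorem oQ_scan : cntMin (scanF oQTs oQT cJNf) = 0 := by decide +kernel
theorem oQ_card : (QS (fun x => dotInt (dec gUS) x = -16 ∧ dotInt (dec gHS) x = 16 ∧ dotInt (dec oJS) x = 8)).ncard = 672 := ncard_QS oQ_sp oQ_cnt
theorem oQ_reach {x : ↥leechLattice} (hx : x ∈ QS (fun x => dotInt (dec gUS) x = -16 ∧ dotInt (dec gHS) x = 16 ∧ dotInt (dec oJS) x = 8)) : ∃ g ∈ Fx cJL, g • bv oQ_fv = x :=
  reach_QS cJ_sys oQ_le oQ_fv.val rfl rfl oQ_sp oQ_scan hx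

end Cfsg.Agent.Lib.LeechP
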