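/-
A search and a count.
-/
import Cfsg.Agent.Lib.LeechP.Fam.McLSys

set_option autoImplicit false
set_option maxRecDepth 100000

namespace Cfsg.Agent.Lib.LeechP

open Cfsg Cfsg.Agent.Lib.Golay Cfsg.Agent.Lib.Golay.Leech Cfsg.Agent.Lib.LeechX Cfsg.Agent.Lib.M24

def odS : ℕ := 10220994932248474348217027713070284618598495572668580024730984707669528391740085431556623205531307537736288632845
def odR : ℕ := 7816087327488069122793014430700122847081159124141351976865566838429621177672320531239251685573120921816802459665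
def odF : ℕ := 380
theorem od_fv : FV odS odR odF := fv_of (by decide +kernel) (by decide +kernel) (by decide +kernel)
theorem od_le : sqNorm (dec odS) ≤ 256 := by decide +kernel
noncomputable def odT : BT := orbitT (actMv cMNf) cMGm 20 (saltN odS)
def odTs : ℕ → Bool := (tA (tD gVR gVF 0 8) (tD gWR gWF 8 0))
theorem od_sp : Sp odTs (fun x => dotInt (dec gVS) x = -8 ∧ dotInt (dec gWS) x = 8) := (sp_tA (sp_tD gV_fv 0 8 (by norm_num)) (sp_tD gW_fv 8 0 (by norm_num)))
theorem od_cnt : cntMin odTs = 15400 := by decide +kernel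
theorem od_scan : cntMin (scanF odTs odT cMNf) = 0 := by decide +kernel
theorem od_card : (QS (fun x => dotInt (dec gVS) x = -8 ∧ dotInt (dec gWS) x = 8)).ncard = 15400 := ncard_QS od_sp od_cnt
theorem od_reach {x : ↥leechLattice} (hx : x ∈ QS (fun x => dotInt (dec gVS) x = -8 ∧ dotInt (dec gWS) x = 8)) : ∃ g ∈ Fx cML, g • bv od_fv = x :=
  reach_QS cM_sys od_le od_fv.val rfl rfl od_sp od_scan hx

end Cfsg.Agent.Lib.LeechP
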