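/-
A search and a count.
-/
import Cfsg.Agent.Lib.LeechP.Fam.McLSys

set_option autoImplicit false
set_option maxRecDepth 100000

namespace Cfsg.Agent.Lib.LeechP

open Cfsg Cfsg.Agent.Lib.Golay Cfsg.Agent.Lib.Golay.Leech Cfsg.Agent.Lib.LeechX Cfsg.Agent.Lib.M24

def obS : ℕ := 10220994932248478620191100549521745127491145020040367706696632120464054519358412680489612374220198125371887910925
def obR : ℕ := 7816087327488073394832271423762991191885161725274681270874055066636106228761943253235010116705732716256589447185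
def obF : ℕ := 380
theorem ob_fv : FV obS obR obF := fv_of (by decide +kernel) (by decide +kernel) (by decide +kernel)
theorem ob_le : sqNorm (dec obS) ≤ 256 := by decide +kernel
noncomputable def obT : BT := orbitT (actMv cMNf) cMGm 16 (saltN obS)
def obTs : ℕ → Bool := (tA (tD gVR gVF 0 8) (tD gWR gWF 16 0))
theorem ob_sp : Sp obTs (fun x => dotInt (dec gVS) x = -8 ∧ dotInt (dec gWS) x = 16) := (sp_tA (sp_tD gV_fv 0 8 (by norm_num)) (sp_tD gW_fv 16 0 (by norm_num)))
theorem ob_cnt : cntMin obTs = 2025 := by decide +kernel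
theorem ob_scan : cntMin (scanF obTs obT cMNf) = 0 := by decide +kernel
theorem ob_card : (QS (fun x => dotInt (dec gVS) x = -8 ∧ dotInt (dec gWS) x = 16)).ncard = 2025 := ncard_QS ob_sp ob_cnt
theorem ob_reach {x : ↥leechLattice} (hx : x ∈ QS (fun x => dotInt (dec gVS) x = -8 ∧ dotInt (dec gWS) x = 16)) : ∃ g ∈ Fx cML, g • bv ob_fv = x :=
  reach_QS cM_sys ob_le ob_fv.val rfl rfl ob_sp ob_scan hx

end Cfsg.Agent.Lib.LeechP
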