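/-
A search and a count.
-/
import Cfsg.Agent.Lib.LeechP.Fam.McLSys

set_option autoImplicit false
set_option maxRecDepth 100000

namespace Cfsg.Agent.Lib.LeechP

open Cfsg Cfsg.Agent.Lib.Golay Cfsg.Agent.Lib.Golay.Leech Cfsg.Agent.Lib.LeechX Cfsg.Agent.Lib.M24

def oeS : ℕ := 10221013280237402268723936443041216300103182299793510042529989057807060289406127868557978220821464224181607399437
def oeR : ℕ := 7816087327488069122793014430700122615496980649508138364890732744336363183527123108041055231975855714066328780817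
def oeF : ℕ := 372
theorem oe_fv : FV oeS oeR oeF := fv_of (by decide +kernel) (by decide +kernel) (by decide +kernel)
theorem oe_le : sqNorm (dec oeS) ≤ 256 := by decide +kernel
noncomputable def oeT : BT := orbitT (actMv cMNf) cMGm 20 (saltN oeS)
def oeTs : ℕ → Bool := (tA (tD gVR gVF 0 8) (tD gWR gWF 0 0))
theorem oe_sp : Sp oeTs (fun x => dotInt (dec gVS) x = -8 ∧ dotInt (dec gWS) x = 0) := (sp_tA (sp_tD gV_fv 0 8 (by norm_num)) (sp_tD gW_fv 0 0 (by norm_num)))
theorem oe_cnt : cntMin oeTs = 22275 := by decide +kernel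
theorem oe_scan : cntMin (scanF oeTs oeT cMNf) = 0 := by decide +kernel
theorem oe_card : (QS (fun x => dotInt (dec gVS) x = -8 ∧ dotInt (dec gWS) x = 0)).ncard = 22275 := ncard_QS oe_sp oe_cnt
theorem oe_reach {x : ↥leechLattice} (hx : x ∈ QS (fun x => dotInt (dec gVS) x = -8 ∧ dotInt (dec gWS) x = 0)) : ∃ g ∈ Fx cML, g • bv oe_fv = x :=
  reach_QS cM_sys oe_le oe_fv.val rfl rfl oe_sp oe_scan hx

end Cfsg.Agent.Lib.LeechP
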