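/-
A search and a count.
-/
import Cfsg.Agent.Lib.LeechP.Fam.McLSys

set_option autoImplicit false
set_option maxRecDepth 100000

namespace Cfsg.Agent.Lib.LeechP

open Cfsg Cfsg.Agent.Lib.Golay Cfsg.Agent.Lib.Golay.Leech Cfsg.Agent.Lib.LeechX Cfsg.Agent.Lib.M24

def oaS : ℕ := 9619777205192823184503923729340014051747552122185811335384648963443049988907245350415704642301435624159896797198
def oaR : ℕ := 8417305054543720286440934257834162215576439674093089634749884482899358756036363264271920645767363552211408781328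
def oaF : ℕ := 368
theorem oa_fv : FV oaS oaR oaF := fv_of (by decide +kernel) (by decide +kernel) (by decide +kernel)
theorem oa_le : sqNorm (dec oaS) ≤ 256 := by decide +kernel
noncomputable def oaT : BT := orbitT (actMv cMNf) cMGm 14 (saltN oaS)
def oaTs : ℕ → Bool := (tA (tD gVR gVF 0 8) (tD gWR gWF 0 16))
theorem oa_sp : Sp oaTs (fun x => dotInt (dec gVS) x = -8 ∧ dotInt (dec gWS) x = -16) := (sp_tA (sp_tD gV_fv 0 8 (by norm_num)) (sp_tD gW_fv 0 16 (by norm_num)))
theorem oa_cnt : cntMin oaTs = 275 := by decide +kernel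
theorem oa_scan : cntMin (scanF oaTs oaT cMNf) = 0 := by decide +kernel
theorem oa_card : (QS (fun x => dotInt (dec gVS) x = -8 ∧ dotInt (dec gWS) x = -16)).ncard = 275 := ncard_QS oa_sp oa_cnt
theorem oa_reach {x : ↥leechLattice} (hx : x ∈ QS (fun x => dotInt (dec gVS) x = -8 ∧ dotInt (dec gWS) x = -16)) : ∃ g ∈ Fx cML, g • bv oa_fv = x :=
  reach_QS cM_sys oa_le oa_fv.val rfl rfl oa_sp oa_scan hx

end Cfsg.Agent.Lib.LeechP
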