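/-
A search and a count.
-/
import Cfsg.Agent.Lib.LeechP.Fam.McLSys

set_option autoImplicit false
set_option maxRecDepth 100000

namespace Cfsg.Agent.Lib.LeechP

open Cfsg Cfsg.Agent.Lib.Golay Cfsg.Agent.Lib.Golay.Leech Cfsg.Agent.Lib.LeechX Cfsg.Agent.Lib.M24

def ocS : ℕ := 10220994932248474348217028707716757206587601354880792124375020266233011067415599773134346711913502253146694549517
def ocR : ℕ := 7816105675476997043365107317267285032192507022028051711139531086027428716654800146950372454780734637288698347537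
def ocF : ℕ := 372
theorem oc_fv : FV ocS ocR ocF := fv_of (by decide +kernel) (by decide +kernel) (by decide +kernel)
theorem oc_le : sqNorm (dec ocS) ≤ 256 := by decide +kernel
noncomputable def ocT : BT := orbitT (actMv cMNf) cMGm 19 (saltN ocS)
def ocTs : ℕ → Bool := (tA (tD gVR gVF 0 8) (tD gWR gWF 0 8))
theorem oc_sp : Sp ocTs (fun x => dotInt (dec gVS) x = -8 ∧ dotInt (dec gWS) x = -8) := (sp_tA (sp_tD gV_fv 0 8 (by norm_num)) (sp_tD gW_fv 0 8 (by norm_num)))
theorem oc_cnt : cntMin ocTs = 7128 := by decide +kernel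
theorem oc_scan : cntMin (scanF ocTs ocT cMNf) = 0 := by decide +kernel
theorem oc_card : (QS (fun x => dotInt (dec gVS) x = -8 ∧ dotInt (dec gWS) x = -8)).ncard = 7128 := ncard_QS oc_sp oc_cnt
theorem oc_reach {x : ↥leechLattice} (hx : x ∈ QS (fun x => dotInt (dec gVS) x = -8 ∧ dotInt (dec gWS) x = -8)) : ∃ g ∈ Fx cML, g • bv oc_fv = x :=
  reach_QS cM_sys oc_le oc_fv.val rfl rfl oc_sp oc_scan hx

end Cfsg.Agent.Lib.LeechP
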