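/-
A frame orbit at a fixed vector.
-/
import Cfsg.Agent.Lib.LeechP.Fam.NSys

set_option autoImplicit false
set_option maxRecDepth 100000

namespace Cfsg.Agent.Lib.LeechP

open Cfsg Cfsg.Agent.Lib.Golay Cfsg.Agent.Lib.Golay.Leech Cfsg.Agent.Lib.LeechX Cfsg.Agent.Lib.M24

def maS : ℕ := 10822231007573025797183337794911331710484415149513322752189323745356079789568676128169609144187734058703174893582
def maR : ℕ := 8417341751081512313194757229497024225027656536090137695772676039894943805488059884447936622281864607263221612562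
def maF : ℕ := 392
theorem ma_fv : FV maS maR maF := fv_of (by decide +kernel) (by decide +kernel) (by decide +kernel)
theorem ma_le : sqNorm (dec maS) ≤ 256 := by decide +kernel
noncomputable def maT : BT := orbitT (actMv mSNf) mSGm 15 (saltN maS)
def maTs : ℕ → Bool := tA (tD fVR fVF 0 0) (tO (tD fWR fWF 16 0) (tD fWR fWF 0 16))
theorem ma_sp : Sp maTs (fun x => dotInt (dec fVS) x = 0 ∧ (dotInt (dec fWS) x = 16 ∨ dotInt (dec fWS) x = -16)) :=
  sp_tA (sp_tD fV_fv 0 0 (by norm_num)) (sp_tO (sp_tD fW_fv 16 0 (by norm_num)) (sp_tD fW_fv 0 16 (by norm_num)))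
theorem ma_cnt : cntMin maTs = 4928 := by decide +kernel
theorem ma_scan : cntMin (scanF maTs maT mSNf) = 0 := by decide +kernel

end Cfsg.Agent.Lib.LeechP
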