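/-
The stabiliser of the standard cross: membership of moves and searches inside it.
-/
import Cfsg.Agent.Lib.LeechP.Chain

set_option autoImplicit false

namespace Cfsg.Agent.Lib.LeechP

open Cfsg Cfsg.Agent.Lib.Golay Cfsg.Agent.Lib.Golay.Leech Cfsg.Agent.Lib.LeechX Cfsg.Agent.Lib.M24 MulAction

/-- The number of a negative frame vector. -/
def eM (i : ℕ) : ℕ := ofF fun k => if k = i then 8 else 16

lemma eM_spec : ∀ i < 24, ∀ p : GolayPt, dec (eM i) p = (Pi.single (pt i) (-8) : GolayPt → ℤ) p := by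
  decide +kernel

/-- The test of a frame vector. -/
noncomputable def crossB (m : ℕ) : Bool := (List.range 24).any fun j => Nat.beq m (eN j) || Nat.beq m (eM j)

lemma cross_of_crossB {m : ℕ} (h : crossB m = true) : dec m ∈ stdCross := by
  simp only [crossB, List.any_eq_true, Bool.or_eq_true, List.mem_range] at h
  obtain ⟨j, hj, h⟩ := h
  rcases h with h | h
  · rw [Nat.eq_of_beq_eq_true h, eN_dec hj]
    exact ⟨pt j, 8, Or.inl rfl, rfl⟩
  · rw [Nat.eq_of_beq_eq_true h]
    exact ⟨pt j, -8, Or.inr rfl, funext (eM_spec j hj)⟩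

theorem stdCross_neg {y : GolayPt → ℤ} (h : y ∈ stdCross) : -y ∈ stdCross := by
  obtain ⟨i, s, hs, rfl⟩ := h
  refine ⟨i, -s, ?_, ?_⟩
  · rcases hs with rfl | rfl <;> simp
  · funext j
    by_cases h : j = i
    · subst h
      simp
    · simp [Pi.single_eq_of_ne h]

/-- The test of a matrix. -/
noncomputable def frameB (R : List Row) : Bool := allL (fun i => crossB (evalM R (eN i))) (List.range 24)

/-- The test of a move. -/
noncomputable def frameMv (T : Mv) : Bool := Mv.rec (motive := fun _ => Bool) (fun R => frameB R) (fun _ => true) T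

lemma eN_le {i : ℕ} (hi : i < 24) : sqNorm (dec (eN i)) ≤ 256 := by
  rw [eN_dec hi, eV_norm]
  norm_num

theorem frame_of_B {R : List Row} (hR : rowsOK R = true) {g : ↥Co0} (hg : CoAct R g) (h : frameB R = true)
    (v : ↥leechLattice) (hv : v.1 ∈ stdCross) : (g • v).1 ∈ stdCross := by
  obtain ⟨i, s, hs, hi⟩ := hv
  have key : (g • eV i).1 ∈ stdCross := by
    have h1 := allL_spec h (idx i) (List.mem_range.2 (idx_lt i))
    have h2 := cross_of_crossB h1
    have h3 := evalM_spec hR hg (eN_val (idx_lt i)) (eN_mem (idx_lt i)) (eN_le (idx_lt i))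
    rw [h3.2] at h2
    have e : (⟨dec (eN (idx i)), eN_mem (idx_lt i)⟩ : ↥leechLattice) = eV i := by
      apply Subtype.ext
      show dec (eN (idx i)) = (eV i).1
      rw [eN_dec (idx_lt i), pt_idx]
    rw [e] at h2
    exact h2
  rcases hs with rfl | rfl
  · have e : v = eV i := Subtype.ext hi
    rw [e]
    exact key
  · have e : v = -eV i := by
      apply Subtype.ext
      rw [hi]
      show _ = -(Pi.single i 8 : GolayPt → ℤ)
      funext j
      by_cases h : j = i
      · subst h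
        simp
      · simp [Pi.single_eq_of_ne h]
    rw [e, smul_neg']
    exact stdCross_neg key

theorem signAut_frame (c : Finset GolayPt) (hc : c ∈ supports (golayCode : Set (GolayPt → ZMod 2)))
    (v : ↥leechLattice) (hv : v.1 ∈ stdCross) : (signAut c hc • v).1 ∈ stdCross := by
  obtain ⟨i, s, hs, hi⟩ := hv
  by_cases hm : i ∈ c
  · refine ⟨i, -s, ?_, ?_⟩
    · rcases hs with rfl | rfl <;> simp
    · funext j
      show (if j ∈ c then -v.1 j else v.1 j) = _
      rw [hi]
      by_cases h : j = i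
      · subst h
        simp [hm]
      · simp [Pi.single_eq_of_ne h]
  · refine ⟨i, s, hs, ?_⟩
    funext j
    show (if j ∈ c then -v.1 j else v.1 j) = _
    rw [hi]
    by_cases h : j = i
    · subst h
      simp [hm]
    · simp [Pi.single_eq_of_ne h]

/-- The tests of a system. -/
noncomputable def frameL (gens : List Mv) : Bool := allL frameMv gens

/-- Membership in the set of an orbit with reduction. -/
def InN (T : BT) (nf : List (ℕ × ℕ)) (x : GolayPt → ℤ) : Prop :=
  ∃ n, Val n ∧ dec n = x ∧ inT T (nfL nf (saltN n)) = true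

theorem sp_inN (T : BT) (nf : List (ℕ × ℕ)) : Sp (fun m => inT T (nfL nf m)) (InN T nf) := by
  intro n hn
  constructor
  · intro h
    exact ⟨n, hn, rfl, h⟩
  · rintro ⟨n', hn', e, h⟩
    rw [← dec_inj hn' hn e]
    exact h

/-- The disjunction of tests. -/
def tO (p q : ℕ → Bool) (m : ℕ) : Bool := p m || q m

theorem sp_tO {p q : ℕ → Bool} {P Q : (GolayPt → ℤ) → Prop} (h1 : Sp p P) (h2 : Sp q Q) :
    Sp (tO p q) (fun x => P x ∨ Q x) := by
  intro n hn
  simp only [tO, Bool.or_eq_true]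
  rw [h1 n hn, h2 n hn]

section group

variable {H : Subgroup ↥Co0}
  (hH : ∀ g : ↥Co0, g ∈ H ↔ ∀ v : ↥leechLattice, v.1 ∈ stdCross → (g • v).1 ∈ stdCross)

include hH

theorem mv_H {L : List ℕ} (hL : GoodL L) {T : Mv} (h : mvChk L T = true) (hf : frameMv T = true) :
    MvOK (H ⊓ Fx L) T := by
  cases T with
  | mat R =>
    obtain ⟨hR, g, hg, hc⟩ := mvOK_of_chk hL h
    exact ⟨hR, g, ⟨(hH g).2 (frame_of_B hR hc hf), hg⟩, hc⟩
  | flp S =>
    obtain ⟨c, h1, hc, h2⟩ := mvOK_of_chk hL h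
    exact ⟨c, h1, hc, (hH _).2 (signAut_frame _ hc), h2⟩

theorem flip_H {L : List ℕ} (hL : GoodL L) {S : ℕ} (h : flipChk L S = true) : FlipOK (H ⊓ Fx L) S := by
  obtain ⟨c, h1, hc, h2⟩ := flipOK_of_chk hL h
  exact ⟨c, h1, hc, (hH _).2 (signAut_frame _ hc), h2⟩

theorem reach_H {L : List ℕ} {gens : List Mv} {nf : List (ℕ × ℕ)} (hS : sysChk L gens nf = true) (hfr : frameL gens = true)
    {x0 : ↥leechLattice} (hx0 : sqNorm x0.1 ≤ 256) {fuel n0 n : ℕ} (hn0 : Val n0) (hd0 : dec n0 = x0.1) (hn : Val n)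
    (h : inT (orbitT (actMv nf) gens fuel (saltN n0)) (nfL nf (saltN n)) = true) : InOrb (H ⊓ Fx L) x0 (dec n) := by
  simp only [sysChk, Bool.and_eq_true] at hS
  obtain ⟨⟨h1, h2⟩, h3⟩ := hS
  have hL := goodL_of L h1
  exact reach_sound hx0 (fun q hq => flip_H hH hL (allL_spec h3 q hq))
    (fun T hT => mv_H hH hL (allL_spec h2 T hT) (allL_spec hfr T hT)) hn0 hd0 hn h

theorem reach_H_in {L : List ℕ} {gens : List Mv} {nf : List (ℕ × ℕ)} (hS : sysChk L gens nf = true) (hfr : frameL gens = true)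
    {x0 : ↥leechLattice} (hx0 : sqNorm x0.1 ≤ 256) {fuel n0 : ℕ} (hn0 : Val n0) (hd0 : dec n0 = x0.1)
    {T : BT} (hT : T = orbitT (actMv nf) gens fuel (saltN n0)) {x : ↥leechLattice} (hx : InN T nf x.1) :
    ∃ g ∈ H ⊓ Fx L, g • x0 = x := by
  obtain ⟨n, hn, e, h⟩ := hx
  rw [hT] at h
  obtain ⟨g, hg, he⟩ := reach_H hH hS hfr hx0 hn0 hd0 hn h
  exact ⟨g, hg, Subtype.ext (he.trans e)⟩

theorem reach_H_scan {L : List ℕ} {gens : List Mv} {nf : List (ℕ × ℕ)} (hS : sysChk L gens nf = true) (hfr : frameL gens = true)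
    {x0 : ↥leechLattice} (hx0 : sqNorm x0.1 ≤ 256) {fuel n0 : ℕ} (hn0 : Val n0) (hd0 : dec n0 = x0.1)
    {T : BT} (hT : T = orbitT (actMv nf) gens fuel (saltN n0))
    {t : ℕ → Bool} {Q : (GolayPt → ℤ) → Prop} (hsp : Sp t Q) (hc : cntMin (scanF t T nf) = 0)
    {x : ↥leechLattice} (hx : x ∈ QS Q) : ∃ g ∈ H ⊓ Fx L, g • x0 = x := by
  obtain ⟨n, hm, hv, he⟩ := mem_minL x.2 hx.1
  have h1 := all_of_cntMin hc n hm
  unfold scanF at h1
  have h2 : t (saltN n) = true := (hsp n hv).2 (by rw [he]; exact hx.2)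
  rw [h2, Bool.true_and] at h1
  have h3 : inT T (nfL nf (saltN n)) = true := by
    revert h1
    cases inT T (nfL nf (saltN n)) <;> simp
  rw [hT] at h3
  obtain ⟨g, hg, e⟩ := reach_H hH hS hfr hx0 hn0 hd0 hv h3
  exact ⟨g, hg, Subtype.ext (e.trans he)⟩

/-- An automorphism taking the base frame vector into the frame preserves the frame. -/
theorem mem_of_e0 {k : ↥Co0} (h : (k • e0).1 ∈ stdCross) : k ∈ H := by
  obtain ⟨a, h1, h2⟩ := frame_trans (k • e0) h
  rw [hH]
  intro v hv
  have h3 : (a⁻¹ * k) • e0 = e0 := by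
    rw [mul_smul, ← h2, inv_smul_smul]
  have h4 := stab_preserves h3 v hv
  have e : k • v = a.1 ((a⁻¹ * k).1 v) := by
    show k • v = (a * (a⁻¹ * k)) • v
    rw [mul_inv_cancel_left]
  rw [e]
  exact h1 _ h4

end group

/-- A vector all of whose sums and differences of two coordinates are in a short list lies in the frame. -/
theorem frame_of_pairs {y : GolayPt → ℤ} (hn : sqNorm y = 64)
    (h1 : ∀ j l : GolayPt, j ≠ l → (y j + y l = 0 ∨ y j + y l = 8 ∨ y j + y l = -8))
    (h2 : ∀ j l : GolayPt, j ≠ l → (y j - y l = 0 ∨ y j - y l = 8 ∨ y j - y l = -8)) : y ∈ stdCross := by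
  classical
  have hne : ∀ j : GolayPt, ∃ l, l ≠ j := by
    intro j
    by_cases h : j = pt 0
    · exact ⟨pt 1, by rw [h]; decide⟩
    · exact ⟨pt 0, fun e => h e.symm⟩
  have hval : ∀ j, y j = 0 ∨ y j = 4 ∨ y j = -4 ∨ y j = 8 ∨ y j = -8 := by
    intro j
    obtain ⟨l, hl⟩ := hne j
    have h3 := h1 j l hl.symm
    have h4 := h2 j l hl.symm
    omega
  have hno4 : ∀ j, y j ≠ 4 ∧ y j ≠ -4 := by
    by_contra hc
    push Not at hc
    obtain ⟨j, hj⟩ := hc
    have hj' : y j = 4 ∨ y j = -4 := by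
      by_cases h : y j = 4
      · exact Or.inl h
      · exact Or.inr (hj h)
    have hall : ∀ l, y l ^ 2 = 16 := by
      intro l
      by_cases hl : l = j
      · subst hl
        rcases hj' with h | h <;> rw [h] <;> norm_num
      · have h3 := h1 l j hl
        have h4 := h2 l j hl
        have h5 : y l = 4 ∨ y l = -4 := by omega
        rcases h5 with h | h <;> rw [h] <;> norm_num
    have : sqNorm y = 384 := by
      rw [sqNorm, Finset.sum_congr rfl (fun l _ => hall l), Finset.sum_const, Finset.card_univ, Leech.card_golayPt]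
      norm_num
    omega
  have hval2 : ∀ j, y j = 0 ∨ y j = 8 ∨ y j = -8 := by
    intro j
    have := hval j
    have := hno4 j
    omega
  have hex : ∃ i, y i ≠ 0 := by
    by_contra hc
    push Not at hc
    have : sqNorm y = 0 := by
      rw [sqNorm]
      apply Finset.sum_eq_zero
      intro i _
      rw [hc i]
      norm_num
    omega
  obtain ⟨i, hi⟩ := hex
  have hi2 : y i = 8 ∨ y i = -8 := by
    have := hval2 i
    omega
  have hz : ∀ l, l ≠ i → y l = 0 := by
    intro l hl
    rcases hval2 l with h | h | h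
    · exact h
    · exfalso
      have h3 := h1 l i hl
      have h4 := h2 l i hl
      omega
    · exfalso
      have h3 := h1 l i hl
      have h4 := h2 l i hl
      omega
  refine ⟨i, y i, hi2, ?_⟩
  funext l
  by_cases hl : l = i
  · subst hl
    simp
  · simp [Pi.single_eq_of_ne hl, hz l hl]

end Cfsg.Agent.Lib.LeechP
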