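/-
A frame orbit at a fixed vector.
-/
import Cfsg.Agent.Lib.LeechP.Fam.NSys

set_option autoImplicit false
set_option maxRecDepth 100000

namespace Cfsg.Agent.Lib.LeechP

open Cfsg Cfsg.Agent.Lib.Golay Cfsg.Agent.Lib.Golay.Leech Cfsg.Agent.Lib.LeechX Cfsg.Agent.Lib.M24

def mbS : ℕ := 10220994932528446712898140924613898958525657495272588357503733222131525675698526181842616355552227344793608585231
def mbR : ℕ := 9018577826126095669454024946968148947460075912800161783439192703230191820237083935715779553723494334306278375441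
def mbF : ℕ := 396
theorem mb_fv : FV mbS mbR mbF := fv_of (by decide +kernel) (by decide +kernel) (by decide +kernel)
theorem mb_le : sqNorm (dec mbS) ≤ 256 := by decide +kernel
noncomputable def mbT : BT := orbitT (actMv mSNf) mSGm 11 (saltN mbS)
def mbTs : ℕ → Bool := tA (tD fVR fVF 0 0) (tO (tD fWR fWF 8 0) (tD fWR fWF 0 8))
theorem mb_sp : Sp mbTs (fun x => dotInt (dec fVS) x = 0 ∧ (dotInt (dec fWS) x = 8 ∨ dotInt (dec fWS) x = -8)) :=
  sp_tA (sp_tD fV_fv 0 0 (by norm_num)) (sp_tO (sp_tD fW_fv 8 0 (by norm_num)) (sp_tD fW_fv 0 8 (by norm_num)))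
theorem mb_cnt : cntMin mbTs = 45056 := by decide +kernel
theorem mb_scan : cntMin (scanF mbTs mbT mSNf) = 0 := by decide +kernel

end Cfsg.Agent.Lib.LeechP
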