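/-
Two frame orbits at a fixed vector.
-/
import Cfsg.Agent.Lib.LeechP.Fam.NSys

set_option autoImplicit false
set_option maxRecDepth 100000

namespace Cfsg.Agent.Lib.LeechP

open Cfsg Cfsg.Agent.Lib.Golay Cfsg.Agent.Lib.Golay.Leech Cfsg.Agent.Lib.LeechX Cfsg.Agent.Lib.M24

def mcS : ℕ := 9619777205192823184503923729340014051747552122185811347938852437139414791240640417832124209630863664481271808016
def mcR : ℕ := 9619740508655031157815286903566328648214388307615573281132210251992987325233675034280154852988794529169565286416
def mcF : ℕ := 376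
theorem mc_fv : FV mcS mcR mcF := fv_of (by decide +kernel) (by decide +kernel) (by decide +kernel)
theorem mc_le : sqNorm (dec mcS) ≤ 256 := by decide +kernel
noncomputable def mcT : BT := orbitT (actMv mSNf) mSGm 15 (saltN mcS)
def mdS : ℕ := 9619777205192823184503923729340014051747552122186634100217704602103100512619778620304888711026915292048247619600
def mdR : ℕ := 9619795553461723469887500129936197917894954635498312762759915501225630612408169779971308172697939218394208272400
def mdF : ℕ := 400
theorem md_fv : FV mdS mdR mdF := fv_of (by decide +kernel) (by decide +kernel) (by decide +kernel)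
theorem md_le : sqNorm (dec mdS) ≤ 256 := by decide +kernel
noncomputable def mdT : BT := orbitT (actMv mSNf) mSGm 16 (saltN mdS)
def mzTs : ℕ → Bool := tA (tD fVR fVF 0 0) (tD fWR fWF 0 0)
theorem mz_sp : Sp mzTs (fun x => dotInt (dec fVS) x = 0 ∧ dotInt (dec fWS) x = 0) :=
  sp_tA (sp_tD fV_fv 0 0 (by norm_num)) (sp_tD fW_fv 0 0 (by norm_num))
noncomputable def mcq (m : ℕ) : Bool := inT mcT (nfL mSNf m)
theorem mc_cnt : cntMin (tA mzTs mcq) = 924 := by decide +kernel
theorem md_cnt : cntMin (tA mzTs (tNot mcq)) = 42240 := by decide +kernel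
theorem md_scan : cntMin (scanF (tA mzTs (tNot mcq)) mdT mSNf) = 0 := by decide +kernel

end Cfsg.Agent.Lib.LeechP
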