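/-
The frame orbit of shape four four.
-/
import Cfsg.Agent.Lib.LeechP.Fam.NSys

set_option autoImplicit false
set_option maxRecDepth 100000

namespace Cfsg.Agent.Lib.LeechP

open Cfsg Cfsg.Agent.Lib.Golay Cfsg.Agent.Lib.Golay.Leech Cfsg.Agent.Lib.LeechX Cfsg.Agent.Lib.M24

noncomputable def nAT : BT := orbitT (actMv nSNf) nSGm 22 (saltN fVS)
noncomputable def nAq (m : ℕ) : Bool := inT nAT (nfL nSNf m)
theorem nA_cnt : cntMin nAq = 1104 := by decide +kernel
/-- Vectors of shape four four. -/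
def aN (j l : ℕ) (s t : Bool) : ℕ := ofF fun k => if k = j then (if s then 20 else 12) else if k = l then (if t then 20 else 12) else 16
/-- Signs. -/
def sgn4 (s : Bool) : ℤ := if s then 4 else -4
theorem nA_all : ∀ j < 24, ∀ l < 24, j ≠ l → ∀ s t : Bool, latOK (aN j l s t) = true ∧
    (∀ p : GolayPt, dec (aN j l s t) p = (Pi.single (pt j) (sgn4 s) + Pi.single (pt l) (sgn4 t) : GolayPt → ℤ) p) ∧
      nAq (saltN (aN j l s t)) = true := by decide +kernel

end Cfsg.Agent.Lib.LeechP
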