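/-
The frame orbit of shape two eight.
-/
import Cfsg.Agent.Lib.LeechP.Fam.NA

set_option autoImplicit false
set_option maxRecDepth 100000

namespace Cfsg.Agent.Lib.LeechP

open Cfsg Cfsg.Agent.Lib.Golay Cfsg.Agent.Lib.Golay.Leech Cfsg.Agent.Lib.LeechX Cfsg.Agent.Lib.M24

def nBS : ℕ := 9619777205192823184503923729340014051747552122185811360493055910835779593574035485248543776960291704837007081490
def nBR : ℕ := 10822249355841926082566913200845865887918664570278533061127820391379470826444917571392327773494363776785495097360
def nBF : ℕ := 400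
theorem nB_fv : FV nBS nBR nBF := fv_of (by decide +kernel) (by decide +kernel) (by decide +kernel)
theorem nB_le : sqNorm (dec nBS) ≤ 256 := by decide +kernel
noncomputable def nBT : BT := orbitT (actMv nSNf) nSGm 25 (saltN nBS)
noncomputable def nBq (m : ℕ) : Bool := inT nBT (nfL nSNf m)
theorem nB_cnt : cntMin (tA (tNot nAq) nBq) = 97152 := by decide +kernel

end Cfsg.Agent.Lib.LeechP
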