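/-
The frame orbit of odd shape.
-/
import Cfsg.Agent.Lib.LeechP.Fam.NB

set_option autoImplicit false
set_option maxRecDepth 100000

namespace Cfsg.Agent.Lib.LeechP

open Cfsg Cfsg.Agent.Lib.Golay Cfsg.Agent.Lib.Golay.Leech Cfsg.Agent.Lib.LeechX Cfsg.Agent.Lib.M24

def nCS : ℕ := 9018541130148244100283911015638811803391921944578112653347715816471769293075152967106270198440263104815296479251
def nCR : ℕ := 11423467082897577246214833027979905487998123594863484330986972129942466398954157727623193187285871614930575097871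
def nCF : ℕ := 396
theorem nC_fv : FV nCS nCR nCF := fv_of (by decide +kernel) (by decide +kernel) (by decide +kernel)
theorem nC_le : sqNorm (dec nCS) ≤ 256 := by decide +kernel
noncomputable def nCT : BT := orbitT (actMv nSNf) nSGm 11 (saltN nCS)
theorem nC_cnt : cntMin (tA (tNot nAq) (tNot nBq)) = 98304 := by decide +kernel
set_option maxHeartbeats 0 in
theorem nC_part1 : foldB (cntF (scanF (tA (tNot nAq) (tNot nBq)) nCT nSNf)) octadL (foldN (cntF (scanF (tA (tNot nAq) (tNot nBq)) nCT nSNf)) listA 0) = 0 := by decide +kernel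
set_option maxHeartbeats 0 in
theorem nC_part2 : foldC (cntF (scanF (tA (tNot nAq) (tNot nBq)) nCT nSNf)) codeL 0 = 0 := by decide +kernel
theorem nC_scan : cntMin (scanF (tA (tNot nAq) (tNot nBq)) nCT nSNf) = 0 := cntMin_zero_of_parts nC_part1 nC_part2

end Cfsg.Agent.Lib.LeechP
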