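/-
The stabiliser of the standard cross is a maximal subgroup.
-/
import Cfsg.Agent.Lib.LeechP.Stb
import Cfsg.Agent.Lib.LeechP.Fam.NC
import Cfsg.Agent.Lib.LeechP.Fam.Ma
import Cfsg.Agent.Lib.LeechP.Fam.Mb
import Cfsg.Agent.Lib.LeechP.Fam.Mc

set_option autoImplicit false

namespace Cfsg.Agent.Lib.LeechP

open Cfsg Cfsg.Agent.Lib.Golay Cfsg.Agent.Lib.Golay.Leech Cfsg.Agent.Lib.LeechX Cfsg.Agent.Lib.M24 MulAction

/-- The base vectors. -/
abbrev vB : ↥leechLattice := bv fV_fv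
abbrev wB : ↥leechLattice := bv fW_fv

theorem vB_norm : sqNorm vB.1 = 32 := by
  show sqNorm (dec fVS) = 32
  decide +kernel

theorem wB_norm : sqNorm wB.1 = 32 := by
  show sqNorm (dec fWS) = 32
  decide +kernel

theorem vw_dot : dotInt vB.1 wB.1 = 0 := by
  show dotInt (dec fVS) (dec fWS) = 0
  decide +kernel

/-- The frame vector of the last coordinate. -/
abbrev e23 : ↥leechLattice := eV (pt 23)

theorem vw_add : vB + wB = e0 := by
  apply Subtype.ext
  funext p
  show dec fVS p + dec fWS p = (Pi.single (pt 0) 8 : GolayPt → ℤ) p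
  revert p
  decide +kernel

theorem vw_sub : vB - wB = e23 := by
  apply Subtype.ext
  funext p
  show dec fVS p - dec fWS p = (Pi.single (pt 23) 8 : GolayPt → ℤ) p
  revert p
  decide +kernel

theorem e0_std : e0.1 ∈ stdCross := ⟨pt 0, 8, Or.inl rfl, rfl⟩
theorem e23_std : e23.1 ∈ stdCross := ⟨pt 23, 8, Or.inl rfl, rfl⟩

theorem dot_e0_e23 : dotInt e0.1 e23.1 = 0 := by
  show dotInt (Pi.single (pt 0) 8 : GolayPt → ℤ) (Pi.single (pt 23) 8) = 0
  rw [dot_single]
  have : (pt 23 : GolayPt) ≠ pt 0 := by decide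
  simp [Pi.single_eq_of_ne this]

theorem dot_add_right' (x u w : GolayPt → ℤ) : dotInt x (u + w) = dotInt x u + dotInt x w := by
  simp only [dotInt, Pi.add_apply, mul_add, Finset.sum_add_distrib]

theorem sgn4_two (s : Bool) : sgn4 s = 4 ∨ sgn4 s = -4 := by
  cases s
  · right
    rfl
  · left
    rfl

theorem idx_ne {i j : GolayPt} (h : i ≠ j) : idx i ≠ idx j := fun e => h (by rw [← pt_idx i, e, pt_idx])

/-- The vectors of shape four four are in the first orbit. -/
theorem inN_shape {i j : GolayPt} (hij : i ≠ j) (s t : Bool) :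
    (Pi.single i (sgn4 s) + Pi.single j (sgn4 t) : GolayPt → ℤ) ∈ leechLattice ∧
      InN nAT nSNf (Pi.single i (sgn4 s) + Pi.single j (sgn4 t)) := by
  obtain ⟨h1, h2, h3⟩ := nA_all (idx i) (idx_lt i) (idx j) (idx_lt j) (idx_ne hij) s t
  rw [pt_idx, pt_idx] at h2
  have e := funext h2
  have h4 := lat_of_latOK h1
  rw [e] at h4
  exact ⟨h4.2, ⟨_, (lat_of_latOK h1).1, e, h3⟩⟩

theorem val_shape {i j : GolayPt} (s t : Bool) (p : GolayPt) (hij : i ≠ j) :
    (Pi.single i (sgn4 s) + Pi.single j (sgn4 t) : GolayPt → ℤ) p = 0 ∨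
      (Pi.single i (sgn4 s) + Pi.single j (sgn4 t) : GolayPt → ℤ) p = 4 ∨
      (Pi.single i (sgn4 s) + Pi.single j (sgn4 t) : GolayPt → ℤ) p = -4 := by
  have hs := sgn4_two s
  have ht := sgn4_two t
  by_cases h1 : p = i
  · subst h1
    simp only [Pi.add_apply, Pi.single_eq_same, Pi.single_eq_of_ne hij, add_zero]
    omega
  · by_cases h2 : p = j
    · subst h2
      simp only [Pi.add_apply, Pi.single_eq_same, Pi.single_eq_of_ne h1, zero_add]
      omega
    · simp only [Pi.add_apply, Pi.single_eq_of_ne h1, Pi.single_eq_of_ne h2, add_zero]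
      exact Or.inl trivial

theorem frame_of_all {k : ↥Co0} (h : ∀ i, (k • eV i).1 ∈ stdCross) (v : ↥leechLattice) (hv : v.1 ∈ stdCross) :
    (k • v).1 ∈ stdCross := by
  obtain ⟨i, s, hs, hi⟩ := hv
  rcases hs with rfl | rfl
  · have e : v = eV i := Subtype.ext hi
    rw [e]
    exact h i
  · have e : v = -eV i := by
      apply Subtype.ext
      rw [hi]
      show _ = -(Pi.single i 8 : GolayPt → ℤ)
      funext j
      by_cases h : j = i
      · subst h
        simp
      · simp [Pi.single_eq_of_ne h]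
    rw [e, smul_neg']
    exact stdCross_neg (h i)

/-- The set of all minimal vectors. -/
abbrev minM : Set ↥leechLattice := {x | sqNorm x.1 = 32}

theorem minM_card : minM.ncard = 196560 := by
  have h : minM = orbit ↥Co0 vB := by
    ext x
    constructor
    · intro hx
      obtain ⟨g, e⟩ := min_trans vB x vB_norm hx
      exact ⟨g, e⟩
    · rintro ⟨g, rfl⟩
      exact (norm_smul g vB).trans vB_norm
  rw [h, orbit_co0 vB_norm (fun y hy => min_trans vB y vB_norm hy)]
  exact ncard_norm32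

/-- The first orbit. -/
abbrev A0 : Set ↥leechLattice := QS (InN nAT nSNf)

theorem A0_card : A0.ncard = 1104 := ncard_QS (p := nAq) (sp_inN nAT nSNf) nA_cnt

theorem dot_shape {i j : GolayPt} (s t : Bool) (y : GolayPt → ℤ) :
    dotInt (Pi.single i (sgn4 s) + Pi.single j (sgn4 t)) y = y i * sgn4 s + y j * sgn4 t := by
  rw [dotInt_comm, dot_add_right', dot_single, dot_single]

/-- The parts of the minimal vectors for the frame. -/
abbrev fP : Fin 3 → Set ↥leechLattice :=
  ![A0 \ {vB}, QS (fun x => ¬ InN nAT nSNf x ∧ InN nBT nSNf x), QS (fun x => ¬ InN nAT nSNf x ∧ ¬ InN nBT nSNf x)]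

theorem fP_arith : ∀ I : Finset (Fin 3), (1 + ∑ i ∈ I, (![1103, 97152, 98304] : Fin 3 → ℕ) i) ∣ 8315553613086720000 → 0 ∈ I →
    I = {0} ∨ I = Finset.univ := by
  decide +kernel

/-- The parts of the vectors orthogonal to the base vector. -/
abbrev oP : Fin 5 → Set ↥leechLattice :=
  ![{-wB},
    QS (fun x => dotInt (dec fVS) x = 0 ∧ (dotInt (dec fWS) x = 16 ∨ dotInt (dec fWS) x = -16)),
    QS (fun x => dotInt (dec fVS) x = 0 ∧ (dotInt (dec fWS) x = 8 ∨ dotInt (dec fWS) x = -8)),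
    QS (fun x => (dotInt (dec fVS) x = 0 ∧ dotInt (dec fWS) x = 0) ∧ InN mcT mSNf x),
    QS (fun x => (dotInt (dec fVS) x = 0 ∧ dotInt (dec fWS) x = 0) ∧ ¬ InN mcT mSNf x)]

theorem oP_arith : ∀ I : Finset (Fin 5), (1 + ∑ i ∈ I, (![1, 4928, 45056, 924, 42240] : Fin 5 → ℕ) i) ∣ 42305421312000 →
    I = ∅ ∨ I = {0} ∨ I = Finset.univ := by
  decide +kernel

theorem mem_neg_wB {x : ↥leechLattice} (h : x = -wB) : dotInt (dec fWS) x.1 = -32 := by
  subst h
  show dotInt (dec fWS) (-dec fWS) = -32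
  decide +kernel

theorem oP_mem {x : ↥leechLattice} {i : Fin 5} (h : x ∈ oP i) :
    (i = 0 ∧ dotInt (dec fWS) x.1 = -32) ∨
    (i = 1 ∧ (dotInt (dec fWS) x.1 = 16 ∨ dotInt (dec fWS) x.1 = -16)) ∨
    (i = 2 ∧ (dotInt (dec fWS) x.1 = 8 ∨ dotInt (dec fWS) x.1 = -8)) ∨
    (i = 3 ∧ dotInt (dec fWS) x.1 = 0 ∧ InN mcT mSNf x.1) ∨
    (i = 4 ∧ dotInt (dec fWS) x.1 = 0 ∧ ¬ InN mcT mSNf x.1) := by
  fin_cases i
  · exact Or.inl ⟨rfl, mem_neg_wB h⟩
  · exact Or.inr (Or.inl ⟨rfl, h.2.2⟩)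
  · exact Or.inr (Or.inr (Or.inl ⟨rfl, h.2.2⟩))
  · exact Or.inr (Or.inr (Or.inr (Or.inl ⟨rfl, h.2.1.2, h.2.2⟩)))
  · exact Or.inr (Or.inr (Or.inr (Or.inr ⟨rfl, h.2.1.2, h.2.2⟩)))

/-- Two vectors of a set reachable from a point are related. -/
theorem trans_QS' {S : Subgroup ↥Co0} {x0 : ↥leechLattice} {P : Set ↥leechLattice}
    (h : ∀ x ∈ P, ∃ g ∈ S, g • x0 = x) {x y : ↥leechLattice} (hx : x ∈ P) (hy : y ∈ P) :
    ∃ g ∈ S, g • x = y := by
  obtain ⟨a, ha, rfl⟩ := h x hx
  obtain ⟨b, hb, rfl⟩ := h y hy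
  refine ⟨b * a⁻¹, S.mul_mem hb (S.inv_mem ha), ?_⟩
  rw [mul_smul, inv_smul_smul]

section main

variable {H : Subgroup ↥Co0}
  (hH : ∀ g : ↥Co0, g ∈ H ↔ ∀ v : ↥leechLattice, v.1 ∈ stdCross → (g • v).1 ∈ stdCross)

include hH

/-- The shape of the images of the base vector. -/
theorem shape_v {g : ↥Co0} (hg : g ∈ H) :
    ∃ i j : GolayPt, i ≠ j ∧ ∃ s t : Bool, (g • vB).1 = Pi.single i (sgn4 s) + Pi.single j (sgn4 t) := by
  obtain ⟨i, a, ha, hi⟩ := (hH g).1 hg e0 e0_std
  obtain ⟨j, b, hb, hj⟩ := (hH g).1 hg e23 e23_std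
  have hij : i ≠ j := by
    rintro rfl
    have h1 := dot_smul g e0 e23
    rw [dot_e0_e23, hi, hj, dot_single] at h1
    simp only [Pi.single_eq_same] at h1
    rcases ha with rfl | rfl <;> rcases hb with rfl | rfl <;> norm_num at h1
  have h2 : (g • vB) + (g • vB) = g • e0 + g • e23 := by
    rw [← smul_add', ← smul_add', ← vw_add, ← vw_sub]
    congr 1
    abel
  have h3 : (g • vB).1 + (g • vB).1 = Pi.single i a + Pi.single j b := by
    have := congrArg Subtype.val h2
    rw [AddSubgroup.coe_add, AddSubgroup.coe_add, hi, hj] at this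
    exact this
  obtain ⟨s, hs⟩ : ∃ s : Bool, a = 2 * sgn4 s := by
    rcases ha with rfl | rfl
    · exact ⟨true, rfl⟩
    · exact ⟨false, rfl⟩
  obtain ⟨t, ht⟩ : ∃ t : Bool, b = 2 * sgn4 t := by
    rcases hb with rfl | rfl
    · exact ⟨true, rfl⟩
    · exact ⟨false, rfl⟩
  refine ⟨i, j, hij, s, t, ?_⟩
  funext p
  have h4 := congrFun h3 p
  simp only [Pi.add_apply] at h4 ⊢
  by_cases h5 : p = i
  · subst h5
    simp only [Pi.single_eq_same, Pi.single_eq_of_ne hij, add_zero] at h4 ⊢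
    omega
  · by_cases h6 : p = j
    · subst h6
      simp only [Pi.single_eq_same, Pi.single_eq_of_ne h5, zero_add] at h4 ⊢
      omega
    · simp only [Pi.single_eq_of_ne h5, Pi.single_eq_of_ne h6, add_zero] at h4 ⊢
      omega

theorem orbit_H_v : orbit ↥H vB = A0 := by
  ext x
  constructor
  · rintro ⟨g, rfl⟩
    obtain ⟨i, j, hij, s, t, e⟩ := shape_v hH g.2
    refine ⟨(norm_smul g.1 vB).trans vB_norm, ?_⟩
    show InN nAT nSNf (g.1 • vB).1
    rw [e]
    exact (inN_shape hij s t).2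
  · intro hx
    obtain ⟨g, hg, e⟩ := reach_H_in hH nS_sys nS_fr (x0 := vB) fV_le fV_fv.val rfl rfl hx.2
    exact ⟨⟨g, hg.1⟩, e⟩

/-- Elements of the first orbit have small coordinates. -/
theorem A0_val {b : ↥leechLattice} (hb : b ∈ A0) (p : GolayPt) : b.1 p = 0 ∨ b.1 p = 4 ∨ b.1 p = -4 := by
  rw [← orbit_H_v hH] at hb
  obtain ⟨g, rfl⟩ := hb
  obtain ⟨i, j, hij, s, t, e⟩ := shape_v hH g.2
  show (g.1 • vB).1 p = _ ∨ (g.1 • vB).1 p = _ ∨ (g.1 • vB).1 p = _
  rw [e]
  exact val_shape s t p hij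

/-- If a subgroup keeps the first orbit then it preserves the frame. -/
theorem le_of_A0 (K : Subgroup ↥Co0) (hB : orbit ↥K vB = A0) : K ≤ H := by
  intro k hk
  rw [hH]
  have hinv : ∀ b ∈ A0, k⁻¹ • b ∈ A0 := by
    intro b hb
    rw [← hB] at hb ⊢
    obtain ⟨l, rfl⟩ := hb
    exact ⟨⟨k⁻¹, K.inv_mem hk⟩ * l, rfl⟩
  refine frame_of_all fun i => ?_
  have hdot : ∀ j l : GolayPt, j ≠ l → ∀ s t : Bool,
      ((k • eV i).1 j * sgn4 s + (k • eV i).1 l * sgn4 t) = 0 ∨
      ((k • eV i).1 j * sgn4 s + (k • eV i).1 l * sgn4 t) = 32 ∨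
      ((k • eV i).1 j * sgn4 s + (k • eV i).1 l * sgn4 t) = -32 := by
    intro j l hjl s t
    obtain ⟨h1, h2⟩ := inN_shape hjl s t
    let a : ↥leechLattice := ⟨_, h1⟩
    have haN : a ∈ A0 := by
      refine ⟨?_, h2⟩
      rw [sqNorm, Fintype.sum_eq_add j l hjl]
      · show ((Pi.single j (sgn4 s) + Pi.single l (sgn4 t) : GolayPt → ℤ) j) ^ 2 +
          ((Pi.single j (sgn4 s) + Pi.single l (sgn4 t) : GolayPt → ℤ) l) ^ 2 = 32
        simp only [Pi.add_apply, Pi.single_eq_same, Pi.single_eq_of_ne hjl, Pi.single_eq_of_ne hjl.symm, add_zero, zero_add]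
        rcases sgn4_two s with h | h <;> rcases sgn4_two t with h' | h' <;> rw [h, h'] <;> norm_num
      · intro p hp
        show ((Pi.single j (sgn4 s) + Pi.single l (sgn4 t) : GolayPt → ℤ) p) ^ 2 = 0
        simp [Pi.single_eq_of_ne hp.1, Pi.single_eq_of_ne hp.2]
    have h3 := dot_smul k (k⁻¹ • a) (eV i)
    rw [smul_inv_smul] at h3
    have h4 : dotInt a.1 (k • eV i).1 = (k • eV i).1 j * sgn4 s + (k • eV i).1 l * sgn4 t := dot_shape s t _
    rw [h4] at h3
    rw [h3]
    have h5 : dotInt (k⁻¹ • a).1 (eV i).1 = (k⁻¹ • a).1 i * 8 := dot_single _ _ _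
    rw [h5]
    rcases A0_val hH (hinv a haN) i with h | h | h <;> rw [h] <;> norm_num
  have hn : sqNorm (k • eV i).1 = 64 := (norm_smul k _).trans (eV_norm i)
  apply frame_of_pairs hn
  · intro j l hjl
    have := hdot j l hjl true true
    simp only [sgn4, if_true] at this
    omega
  · intro j l hjl
    have := hdot j l hjl true false
    simp only [sgn4, if_true, Bool.false_eq_true, if_false] at this
    omega

/-- The first step: the orbit of the base vector under an overgroup. -/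
theorem step_a (K : Subgroup ↥Co0) (hHK : H ≤ K) : orbit ↥K vB = A0 ∨ orbit ↥K vB = minM := by
  have hsub : orbit ↥K vB ⊆ minM := by
    rintro _ ⟨k, rfl⟩
    exact (norm_smul k.1 vB).trans vB_norm
  have hA : A0 ⊆ orbit ↥K vB := by
    rw [← orbit_H_v hH]
    rintro _ ⟨g, rfl⟩
    exact ⟨⟨g.1, hHK g.2⟩, rfl⟩
  have hvA : vB ∈ A0 := by
    rw [← orbit_H_v hH]
    exact mem_orbit_self vB
  have hAf : A0.Finite := Set.finite_of_ncard_ne_zero (by rw [A0_card]; norm_num)
  have hn : ∀ i, (fP i).ncard = (![1103, 97152, 98304] : Fin 3 → ℕ) i := by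
    intro i
    fin_cases i
    · show (A0 \ {vB}).ncard = 1103
      rw [Set.ncard_sdiff_singleton_of_mem hvA, A0_card]
    · exact ncard_QS (sp_tA (sp_tNot (p := nAq) (sp_inN nAT nSNf)) (p := tNot nAq) (q := nBq) (sp_inN nBT nSNf)) nB_cnt
    · exact ncard_QS (sp_tA (sp_tNot (p := nAq) (sp_inN nAT nSNf)) (p := tNot nAq) (q := tNot nBq)
        (sp_tNot (p := nBq) (sp_inN nBT nSNf))) nC_cnt
  have hf : ∀ i, (fP i).Finite := by
    intro i
    refine Set.finite_of_ncard_ne_zero ?_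
    rw [hn i]
    fin_cases i <;> simp
  have hmem0 : ∀ x ∈ fP 0, x ∈ A0 ∧ x ≠ vB := fun x hx => ⟨hx.1, hx.2⟩
  have hd : ∀ i j, i ≠ j → Disjoint (fP i) (fP j) := by
    intro i j hij
    rw [Set.disjoint_left]
    intro x h1 h2
    fin_cases i <;> fin_cases j
    · exact hij rfl
    · exact h2.2.1 h1.1.2
    · exact h2.2.1 h1.1.2
    · exact h1.2.1 h2.1.2
    · exact hij rfl
    · exact h2.2.2 h1.2.2
    · exact h1.2.1 h2.1.2
    · exact h1.2.2 h2.2.2
    · exact hij rfl
  have hna : ∀ i, vB ∉ fP i := by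
    intro i h
    fin_cases i
    · exact h.2 rfl
    · exact h.2.1 hvA.2
    · exact h.2.1 hvA.2
  have hcov : ∀ x ∈ minM, x = vB ∨ ∃ i, x ∈ fP i := by
    intro x hx
    by_cases h1 : InN nAT nSNf x.1
    · by_cases h2 : x = vB
      · exact Or.inl h2
      · exact Or.inr ⟨0, ⟨⟨hx, h1⟩, h2⟩⟩
    · by_cases h3 : InN nBT nSNf x.1
      · exact Or.inr ⟨1, ⟨hx, h1, h3⟩⟩
      · exact Or.inr ⟨2, ⟨hx, h1, h3⟩⟩
  have hcl : ∀ i, ∀ x ∈ fP i, ∀ y ∈ fP i, x ∈ orbit ↥K vB → y ∈ orbit ↥K vB := by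
    intro i x hx y hy hxB
    have step : ∀ {z : ↥leechLattice} {g : ↥Co0}, g ∈ H → z ∈ orbit ↥K vB → g • z ∈ orbit ↥K vB := by
      rintro z g hg ⟨k, rfl⟩
      exact ⟨⟨g, hHK hg⟩ * k, rfl⟩
    fin_cases i
    · exact hA hy.1
    · obtain ⟨g, hg, e⟩ := trans_QS' (fun z hz => reach_H_in hH nS_sys nS_fr (x0 := bv nB_fv) nB_le nB_fv.val rfl rfl hz.2.2) hx hy
      rw [← e]
      exact step hg.1 hxB
    · obtain ⟨g, hg, e⟩ := trans_QS' (fun z hz => reach_H_scan hH nS_sys nS_fr (x0 := bv nC_fv) nC_le nC_fv.val rfl rfl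
        (sp_tA (sp_tNot (p := nAq) (sp_inN nAT nSNf)) (p := tNot nAq) (q := tNot nBq)
          (sp_tNot (p := nBq) (sp_inN nBT nSNf))) nC_scan hz) hx hy
      rw [← e]
      exact step hg.1 hxB
  obtain ⟨I, e1, e2⟩ := block_of_parts fP ![1103, 97152, 98304] hn hf hd hna hcov (orbit ↥K vB) (mem_orbit_self vB) hsub hcl
  have hdv : (1 + ∑ i ∈ I, (![1103, 97152, 98304] : Fin 3 → ℕ) i) ∣ 8315553613086720000 := by
    rw [← e2, ← card_Co0]
    have h1 : (orbit ↥K vB).ncard ∣ Nat.card ↥K := by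
      rw [← index_stabilizer]
      exact Subgroup.index_dvd_card _
    exact h1.trans (Subgroup.card_subgroup_dvd_card K)
  have h0 : (0 : Fin 3) ∈ I := by
    have hne : (A0 \ {vB}).Nonempty := by
      rw [← Set.ncard_pos (hAf.subset Set.sdiff_subset), Set.ncard_sdiff_singleton_of_mem hvA, A0_card]
      norm_num
    obtain ⟨z, hz⟩ := hne
    have h1 := hA hz.1
    rw [e1] at h1
    simp only [Set.mem_union, Set.mem_singleton_iff, Set.mem_iUnion, exists_prop] at h1
    rcases h1 with h1 | ⟨i, hi, h1⟩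
    · exact absurd h1 hz.2
    · fin_cases i
      · exact hi
      · exact absurd hz.1.2 h1.2.1
      · exact absurd hz.1.2 h1.2.1
  rcases fP_arith I hdv h0 with rfl | rfl
  · left
    rw [e1]
    ext x
    simp only [Set.mem_union, Set.mem_singleton_iff, Set.mem_iUnion, exists_prop, Finset.mem_singleton, exists_eq_left]
    constructor
    · rintro (rfl | h)
      · exact hvA
      · exact h.1
    · intro h
      by_cases h2 : x = vB
      · exact Or.inl h2
      · exact Or.inr ⟨h, h2⟩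
  · right
    rw [e1]
    have := block_ends fP (Ω := minM) vB_norm hcov (fun i x hx => by
      fin_cases i
      · exact hx.1.1
      · exact hx.1
      · exact hx.1) Finset.univ (Or.inr rfl)
    rcases this with h | h
    · exfalso
      have h3 : ({vB} ∪ ⋃ i ∈ (Finset.univ : Finset (Fin 3)), fP i).ncard = 196560 := by
        rw [← e1, e2]
        decide +kernel
      rw [h, Set.ncard_singleton] at h3
      omega
    · exact h

/-- The second step: the stabiliser of the base vector lies in the overgroup or the overgroup is small. -/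
theorem step_b (K : Subgroup ↥Co0) (hHK : H ≤ K) (hall : orbit ↥K vB = minM) : stb vB ≤ K := by
  set Kv : Subgroup ↥Co0 := K ⊓ stb vB with hKv
  have hHv : ∀ g ∈ H ⊓ Fx mSL, g ∈ Kv := by
    intro g hg
    exact ⟨hHK hg.1, fx_bv hg.2 fV_fv (by simp [mSL])⟩
  have hdotv : ∀ k ∈ Kv, ∀ x : ↥leechLattice, dotInt vB.1 (k • x).1 = dotInt vB.1 x.1 := by
    intro k hk x
    have h1 := dot_smul k vB x
    rwa [show k • vB = vB from hk.2] at h1
  have hsub : orbit ↥Kv wB ⊆ S1 vB 0 := by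
    rintro _ ⟨k, rfl⟩
    exact ⟨(norm_smul k.1 wB).trans wB_norm, (hdotv k.1 k.2 wB).trans vw_dot⟩
  have hn : ∀ i, (oP i).ncard = (![1, 4928, 45056, 924, 42240] : Fin 5 → ℕ) i := by
    intro i
    fin_cases i
    · exact Set.ncard_singleton _
    · exact ncard_QS ma_sp ma_cnt
    · exact ncard_QS mb_sp mb_cnt
    · exact ncard_QS (sp_tA mz_sp (q := mcq) (sp_inN mcT mSNf)) mc_cnt
    · exact ncard_QS (sp_tA mz_sp (q := tNot mcq) (sp_tNot (p := mcq) (sp_inN mcT mSNf))) md_cnt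
  have hf : ∀ i, (oP i).Finite := by
    intro i
    refine Set.finite_of_ncard_ne_zero ?_
    rw [hn i]
    fin_cases i <;> simp
  have hd : ∀ i j, i ≠ j → Disjoint (oP i) (oP j) := by
    intro i j hij
    rw [Set.disjoint_left]
    intro x h1 h2
    have h3 := oP_mem h1
    have h4 := oP_mem h2
    rcases h3 with ⟨rfl, h3⟩ | ⟨rfl, h3⟩ | ⟨rfl, h3⟩ | ⟨rfl, h3, h3'⟩ | ⟨rfl, h3, h3'⟩ <;>
      rcases h4 with ⟨rfl, h4⟩ | ⟨rfl, h4⟩ | ⟨rfl, h4⟩ | ⟨rfl, h4, h4'⟩ | ⟨rfl, h4, h4'⟩ <;>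
        first
          | exact absurd rfl hij
          | exact h4' h3'
          | exact h3' h4'
          | omega
  have hw32 : dotInt (dec fWS) (dec fWS) = 32 := by decide +kernel
  have hna : ∀ i, wB ∉ oP i := by
    intro i h
    have h3 := oP_mem h
    have h4 : dotInt (dec fWS) wB.1 = 32 := hw32
    rw [h4] at h3
    omega
  have hcov : ∀ x ∈ S1 vB 0, x = wB ∨ ∃ i, x ∈ oP i := by
    intro x hx
    by_cases h1 : x = wB
    · exact Or.inl h1
    by_cases h2 : x = -wB
    · exact Or.inr ⟨0, h2⟩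
    right
    have hv0 : dotInt (dec fVS) x.1 = 0 := hx.2
    have h1' : wB.1 - x.1 ≠ 0 := fun e => h1 (Subtype.ext (sub_eq_zero.1 e).symm)
    have h2' : wB.1 + x.1 ≠ 0 := fun e => h2 (Subtype.ext (eq_neg_of_add_eq_zero_right e))
    have h3 := norm_ge' (leechLattice.sub_mem wB.2 x.2) h1'
    have h4 := norm_ge' (leechLattice.add_mem wB.2 x.2) h2'
    rw [sqNorm_sub, wB_norm, hx.1] at h3
    rw [sqNorm_add, wB_norm, hx.1] at h4
    obtain ⟨k, hk⟩ := eight_dvd_dot wB x
    have hk1 : k = -2 ∨ k = -1 ∨ k = 0 ∨ k = 1 ∨ k = 2 := by omega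
    rcases hk1 with rfl | rfl | rfl | rfl | rfl
    · exact ⟨1, ⟨hx.1, hv0, Or.inr (by rw [show dotInt (dec fWS) x.1 = dotInt wB.1 x.1 from rfl, hk]; norm_num)⟩⟩
    · exact ⟨2, ⟨hx.1, hv0, Or.inr (by rw [show dotInt (dec fWS) x.1 = dotInt wB.1 x.1 from rfl, hk]; norm_num)⟩⟩
    · have h0 : dotInt (dec fWS) x.1 = 0 := by
        rw [show dotInt (dec fWS) x.1 = dotInt wB.1 x.1 from rfl, hk]
        norm_num
      by_cases h5 : InN mcT mSNf x.1
      · exact ⟨3, ⟨hx.1, ⟨hv0, h0⟩, h5⟩⟩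
      · exact ⟨4, ⟨hx.1, ⟨hv0, h0⟩, h5⟩⟩
    · exact ⟨2, ⟨hx.1, hv0, Or.inl (by rw [show dotInt (dec fWS) x.1 = dotInt wB.1 x.1 from rfl, hk]; norm_num)⟩⟩
    · exact ⟨1, ⟨hx.1, hv0, Or.inl (by rw [show dotInt (dec fWS) x.1 = dotInt wB.1 x.1 from rfl, hk]; norm_num)⟩⟩
  have hcl : ∀ i, ∀ x ∈ oP i, ∀ y ∈ oP i, x ∈ orbit ↥Kv wB → y ∈ orbit ↥Kv wB := by
    intro i x hx y hy hxB
    have step : ∀ {z : ↥leechLattice} {g : ↥Co0}, g ∈ H ⊓ Fx mSL → z ∈ orbit ↥Kv wB → g • z ∈ orbit ↥Kv wB := by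
      rintro z g hg ⟨k, rfl⟩
      exact ⟨⟨g, hHv g hg⟩ * k, rfl⟩
    fin_cases i
    · have e1 : x = -wB := hx
      have e2 : y = -wB := hy
      rwa [e2, ← e1]
    · obtain ⟨g, hg, e⟩ := trans_QS' (fun z hz => reach_H_scan hH mS_sys mS_fr (x0 := bv ma_fv) ma_le ma_fv.val rfl rfl
        ma_sp ma_scan hz) hx hy
      rw [← e]
      exact step hg hxB
    · obtain ⟨g, hg, e⟩ := trans_QS' (fun z hz => reach_H_scan hH mS_sys mS_fr (x0 := bv mb_fv) mb_le mb_fv.val rfl rfl
        mb_sp mb_scan hz) hx hy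
      rw [← e]
      exact step hg hxB
    · obtain ⟨g, hg, e⟩ := trans_QS' (fun z hz => reach_H_in hH mS_sys mS_fr (x0 := bv mc_fv) mc_le mc_fv.val rfl rfl hz.2.2) hx hy
      rw [← e]
      exact step hg hxB
    · obtain ⟨g, hg, e⟩ := trans_QS' (fun z hz => reach_H_scan hH mS_sys mS_fr (x0 := bv md_fv) md_le md_fv.val rfl rfl
        (sp_tA mz_sp (q := tNot mcq) (sp_tNot (p := mcq) (sp_inN mcT mSNf))) md_scan hz) hx hy
      rw [← e]
      exact step hg hxB
  obtain ⟨I, e1, e2⟩ := block_of_parts oP ![1, 4928, 45056, 924, 42240] hn hf hd hna hcov (orbit ↥Kv wB) (mem_orbit_self wB) hsub hcl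
  have hdv : (1 + ∑ i ∈ I, (![1, 4928, 45056, 924, 42240] : Fin 5 → ℕ) i) ∣ 42305421312000 := by
    rw [← e2, ← card_stb_min vB vB_norm]
    have h1 : (orbit ↥Kv wB).ncard ∣ Nat.card ↥Kv := by
      rw [← index_stabilizer]
      exact Subgroup.index_dvd_card _
    exact h1.trans (Subgroup.card_dvd_of_le inf_le_right)
  have hsmall : (I = ∅ ∨ I = {0}) → False := by
    intro hI
    have hpair : ∀ k ∈ Kv, k • wB = wB ∨ k • wB = -wB := by
      intro k hk
      have h1 : k • wB ∈ orbit ↥Kv wB := ⟨⟨k, hk⟩, rfl⟩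
      rw [e1] at h1
      rcases hI with rfl | rfl
      · left
        simpa using h1
      · simpa [or_comm] using h1
    have hKH : Kv ≤ H := by
      intro k hk
      apply mem_of_e0 hH
      have hv : k • vB = vB := hk.2
      rcases hpair k hk with h | h
      · have : k • e0 = e0 := by
          rw [← vw_add, smul_add', hv, h]
        rw [this]
        exact e0_std
      · have : k • e0 = e23 := by
          rw [← vw_add, smul_add', hv, h, ← vw_sub, sub_eq_add_neg]
        rw [this]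
        exact e23_std
    have e3 : H ⊓ stb vB = Kv := by
      ext g
      constructor
      · rintro ⟨h1, h2⟩
        exact ⟨hHK h1, h2⟩
      · intro h1
        exact ⟨hKH h1, h1.2⟩
    have c1 := card_inf_stb H vB
    have c2 := card_inf_stb K vB
    rw [orbit_H_v hH, A0_card, e3] at c1
    rw [hall, minM_card] at c2
    have h5 : Nat.card ↥H ∣ Nat.card ↥K := Subgroup.card_dvd_of_le hHK
    rw [← c1, ← c2] at h5
    have hpos : 0 < Nat.card ↥Kv := Nat.card_pos
    have h6 := Nat.dvd_of_mul_dvd_mul_left hpos h5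
    revert h6
    decide
  rcases oP_arith I hdv with h | h | rfl
  · exact (hsmall (Or.inl h)).elim
  · exact (hsmall (Or.inr h)).elim
  · have hB : orbit ↥Kv wB = S1 vB 0 := by
      rw [e1]
      have := block_ends oP (Ω := S1 vB 0) (a := wB) ⟨wB_norm, vw_dot⟩ hcov (fun i x hx => by
        have h3 : dotInt (dec fVS) x.1 = 0 := by
          fin_cases i
          · have e : x = -wB := hx
            subst e
            show dotInt (dec fVS) (-dec fWS) = 0
            decide +kernel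
          · exact hx.2.1
          · exact hx.2.1
          · exact hx.2.1.1
          · exact hx.2.1.1
        have h4 : sqNorm x.1 = 32 := by
          fin_cases i
          · have e : x = -wB := hx
            subst e
            show sqNorm (-dec fWS) = 32
            decide +kernel
          · exact hx.1
          · exact hx.1
          · exact hx.1
          · exact hx.1
        exact ⟨h4, h3⟩) Finset.univ (Or.inr rfl)
      rcases this with h | h
      · exfalso
        have h3 : ({wB} ∪ ⋃ i ∈ (Finset.univ : Finset (Fin 5)), oP i).ncard = 93150 := by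
          rw [← e1, e2]
          decide +kernel
        rw [h, Set.ncard_singleton] at h3
        omega
      · exact h
    intro g hg
    have hgv : g • vB = vB := hg
    have hm : g • wB ∈ orbit ↥Kv wB := by
      rw [hB]
      refine ⟨(norm_smul g wB).trans wB_norm, ?_⟩
      have := dot_smul g vB wB
      rw [hgv] at this
      exact this.trans vw_dot
    obtain ⟨k, hk⟩ := hm
    have hk' : k.1 • wB = g • wB := hk
    have h5 : k.1⁻¹ * g ∈ H := by
      apply mem_of_e0 hH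
      have : (k.1⁻¹ * g) • e0 = e0 := by
        rw [mul_smul, ← vw_add, smul_add', smul_add', hgv, ← hk', inv_smul_smul]
        have h7 : k.1⁻¹ • vB = vB := by
          rw [inv_smul_eq_iff]
          exact (show k.1 • vB = vB from k.2.2).symm
        rw [h7]
      rw [this]
      exact e0_std
    have h6 := K.mul_mem k.2.1 (hHK h5)
    simpa using h6

/-- The main theorem. -/
theorem coatom_main : IsCoatom H := by
  constructor
  · intro htop
    have h1 : minM ⊆ A0 := by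
      intro x hx
      obtain ⟨g, e⟩ := min_trans vB x vB_norm hx
      rw [← orbit_H_v hH]
      exact ⟨⟨g, by rw [htop]; exact Subgroup.mem_top g⟩, e⟩
    have h2 := Set.ncard_le_ncard h1 (Set.finite_of_ncard_ne_zero (by rw [A0_card]; norm_num))
    rw [A0_card, minM_card] at h2
    omega
  · intro K hlt
    rcases step_a hH K hlt.le with h | h
    · exact absurd (le_of_A0 hH K h) (not_le_of_gt hlt)
    · have h1 := step_b hH K hlt.le h
      rw [eq_top_iff]
      intro g _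
      have h4 : g • vB ∈ orbit ↥K vB := by
        rw [h]
        exact (norm_smul g vB).trans vB_norm
      obtain ⟨k, hk⟩ := h4
      have h5 : k.1⁻¹ * g ∈ stb vB := by
        show (k.1⁻¹ * g) • vB = vB
        rw [mul_smul, inv_smul_eq_iff]
        exact hk.symm
      have h6 := K.mul_mem k.2 (h1 h5)
      simpa using h6

end main

end Cfsg.Agent.Lib.LeechP
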