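/-
A search and a count.
-/
import Cfsg.Agent.Lib.LeechP.Fam.U43Sys

set_option autoImplicit false
set_option maxRecDepth 100000

namespace Cfsg.Agent.Lib.LeechP

open Cfsg Cfsg.Agent.Lib.Golay Cfsg.Agent.Lib.Golay.Leech Cfsg.Agent.Lib.LeechX Cfsg.Agent.Lib.M24

def oCS : ℕ := 10822231007573025797183337794896154609763901587226871121741176979429517322868420570829760293801445014754387034130
def oCR : ℕ := 10822231007852993890020749467120188369889345203153054264670566611188598820128537661767956187476508595362282340370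
def oCF : ℕ := 400
theorem oC_fv : FV oCS oCR oCF := fv_of (by decide +kernel) (by decide +kernel) (by decide +kernel)
theorem oC_le : sqNorm (dec oCS) ≤ 256 := by decide +kernel
noncomputable def oCT : BT := orbitT (actMv cUNf) cUGm 12 (saltN oCS)
def oCTs : ℕ → Bool := (tA (tD gUR gUF 24 0) (tA (tD gVR gVF 16 0) (tD gPR gPF 8 0)))
theorem oC_sp : Sp oCTs (fun x => dotInt (dec gUS) x = 24 ∧ dotInt (dec gVS) x = 16 ∧ dotInt (dec gPS) x = 8) := (sp_tA (sp_tD gU_fv 24 0 (by norm_num)) (sp_tA (sp_tD gV_fv 16 0 (by norm_num)) (sp_tD gP_fv 8 0 (by norm_num))))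
theorem oC_cnt : cntMin oCTs = 112 := by decide +kernel
theorem oC_scan : cntMin (scanF oCTs oCT cUNf) = 0 := by decide +kernel
theorem oC_card : (QS (fun x => dotInt (dec gUS) x = 24 ∧ dotInt (dec gVS) x = 16 ∧ dotInt (dec gPS) x = 8)).ncard = 112 := ncard_QS oC_sp oC_cnt
theorem oC_reach {x : ↥leechLattice} (hx : x ∈ QS (fun x => dotInt (dec gUS) x = 24 ∧ dotInt (dec gVS) x = 16 ∧ dotInt (dec gPS) x = 8)) : ∃ g ∈ Fx cUL, g • bv oC_fv = x :=
  reach_QS cU_sys oC_le oC_fv.val rfl rfl oC_sp oC_scan hx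

end Cfsg.Agent.Lib.LeechP
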