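/-
A search and a count.
-/
import Cfsg.Agent.Lib.LeechP.Fam.U43Sys

set_option autoImplicit false
set_option maxRecDepth 100000

namespace Cfsg.Agent.Lib.LeechP

open Cfsg Cfsg.Agent.Lib.Golay Cfsg.Agent.Lib.Golay.Leech Cfsg.Agent.Lib.LeechX Cfsg.Agent.Lib.M24

def oDS : ℕ := 12024684809953228409862751860452295167780251052267930895543118391988396832957999463938951983976866816420333223952
def oDR : ℕ := 9619777205752759370048374781979374621889663191716222722247514820864412066481588385627164445976083037816353718292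
def oDF : ℕ := 392
theorem oD_fv : FV oDS oDR oDF := fv_of (by decide +kernel) (by decide +kernel) (by decide +kernel)
theorem oD_le : sqNorm (dec oDS) ≤ 256 := by decide +kernel
noncomputable def oDT : BT := orbitT (actMv cUNf) cUGm 13 (saltN oDS)
def oDTs : ℕ → Bool := (tA (tD gUR gUF 24 0) (tA (tD gVR gVF 16 0) (tD gPR gPF 16 0)))
theorem oD_sp : Sp oDTs (fun x => dotInt (dec gUS) x = 24 ∧ dotInt (dec gVS) x = 16 ∧ dotInt (dec gPS) x = 16) := (sp_tA (sp_tD gU_fv 24 0 (by norm_num)) (sp_tA (sp_tD gV_fv 16 0 (by norm_num)) (sp_tD gP_fv 16 0 (by norm_num))))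
theorem oD_cnt : cntMin oDTs = 162 := by decide +kernel
theorem oD_scan : cntMin (scanF oDTs oDT cUNf) = 0 := by decide +kernel
theorem oD_card : (QS (fun x => dotInt (dec gUS) x = 24 ∧ dotInt (dec gVS) x = 16 ∧ dotInt (dec gPS) x = 16)).ncard = 162 := ncard_QS oD_sp oD_cnt
theorem oD_reach {x : ↥leechLattice} (hx : x ∈ QS (fun x => dotInt (dec gUS) x = 24 ∧ dotInt (dec gVS) x = 16 ∧ dotInt (dec gPS) x = 16)) : ∃ g ∈ Fx cUL, g • bv oD_fv = x :=
  reach_QS cU_sys oD_le oD_fv.val rfl rfl oD_sp oD_scan hx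

end Cfsg.Agent.Lib.LeechP
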