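/-
The configurations of the McLaughlin group.
-/
import Cfsg.Agent.Lib.LeechP.Fam.Cfg
import Cfsg.Agent.Lib.LeechP.Fam.U112
import Cfsg.Agent.Lib.LeechP.Fam.U162
import Cfsg.Agent.Lib.LeechP.Fam.A330
import Cfsg.Agent.Lib.LeechP.Fam.A462
import Cfsg.Agent.Lib.LeechP.Fam.A1232

set_option autoImplicit false

namespace Cfsg.Agent.Lib.LeechP

open Cfsg Cfsg.Agent.Lib.Golay Cfsg.Agent.Lib.Golay.Leech Cfsg.Agent.Lib.LeechX Cfsg.Agent.Lib.M24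

theorem s1580_set (u v : ↥leechLattice) (hu : sqNorm u.1 = 48) :
    {x : ↥leechLattice | sqNorm x.1 = 32 ∧ sqNorm (u.1 - x.1) = 32 ∧ dotInt v.1 x.1 = 16} = S2 u 24 v 16 := by
  ext x
  rw [mem_S2]
  constructor
  · rintro ⟨h1, h2, h3⟩
    exact ⟨h1, (sub_norm_iff hu h1).1 h2, h3⟩
  · rintro ⟨h1, h2, h3⟩
    exact ⟨h1, (sub_norm_iff hu h1).2 h2, h3⟩

theorem s1580_main (u v : ↥leechLattice) (hu : sqNorm u.1 = 48) (hv : sqNorm v.1 = 32) (hw : sqNorm (u.1 - v.1) = 32) :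
    (S2 u 24 v 16).ncard = 275 ∧ ∀ x ∈ S2 u 24 v 16, ∀ y ∈ S2 u 24 v 16, ∃ g : ↥Co0, g • u = u ∧ g • v = v ∧ g • x = y := by
  obtain ⟨a, h1, h2⟩ := mcl_frame u v hu hv hw
  have hS := S2_smul a h1 h2 24 16
  exact ⟨(ncard_smul a hS).trans oA_card, tr2 h1 h2 hS t275⟩

/-- The fixers of the second system. -/
theorem fixU3 {g : ↥Co0} (hg : g ∈ Fx cUL) : g • bU = bU ∧ g • bV = bV ∧ g • bP = bP := by
  have h1 : g • bV = bV := fx_bv hg gV_fv (by simp [cUL])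
  have h2 : g • bW = bW := fx_bv hg gW_fv (by simp [cUL])
  exact ⟨by rw [← bU_eq, smul_add', h1, h2], h1, fx_bv hg gP_fv (by simp [cUL])⟩

theorem t112 : ∀ x ∈ S3 bU 24 bV 16 bP 8, ∀ y ∈ S3 bU 24 bV 16 bP 8, ∃ g : ↥Co0, g • bU = bU ∧ g • bV = bV ∧ g • bP = bP ∧ g • x = y := by
  intro x hx y hy
  obtain ⟨g, hg, e⟩ := trans_QS (fun z hz => oC_reach hz) hx hy
  exact ⟨g, (fixU3 hg).1, (fixU3 hg).2.1, (fixU3 hg).2.2, e⟩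

theorem t162 : ∀ x ∈ S3 bU 24 bV 16 bP 16, ∀ y ∈ S3 bU 24 bV 16 bP 16, ∃ g : ↥Co0, g • bU = bU ∧ g • bV = bV ∧ g • bP = bP ∧ g • x = y := by
  intro x hx y hy
  obtain ⟨g, hg, e⟩ := trans_QS (fun z hz => oD_reach hz) hx hy
  exact ⟨g, (fixU3 hg).1, (fixU3 hg).2.1, (fixU3 hg).2.2, e⟩

theorem excl_U (y : ↥leechLattice) (hy : y ∈ S2 bU 24 bV 16) :
    dotInt bP.1 y.1 = 8 ∨ dotInt bP.1 y.1 = 16 ∨ dotInt bP.1 y.1 = 32 := by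
  by_contra h
  push Not at h
  exact eU_none y ⟨hy.1, hy.2.1, hy.2.2, h.1, h.2.1, h.2.2⟩

theorem s1581_main (u v x : ↥leechLattice) (hu : sqNorm u.1 = 48) (hv : sqNorm v.1 = 32) (hw : sqNorm (u.1 - v.1) = 32)
    (hx : x ∈ S2 u 24 v 16) : (S3 u 24 v 16 x 8).ncard = 112 ∧ (S3 u 24 v 16 x 16).ncard = 162 ∧
      ∀ y ∈ S2 u 24 v 16, ∀ y' ∈ S2 u 24 v 16, y ≠ x → y' ≠ x → dotInt x.1 y.1 = dotInt x.1 y'.1 →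
        ∃ g : ↥Co0, g • u = u ∧ g • v = v ∧ g • x = x ∧ g • y = y' := by
  obtain ⟨a, h1, h2, h3⟩ := mcl_frame3 u v x hu hv hw hx
  have hS8 := S3_smul a h1 h2 h3 24 16 8
  have hS16 := S3_smul a h1 h2 h3 24 16 16
  refine ⟨(ncard_smul a hS8).trans oC_card, (ncard_smul a hS16).trans oD_card, ?_⟩
  intro y hy y' hy' hne hne' hdd
  have key : dotInt x.1 y.1 = 8 ∨ dotInt x.1 y.1 = 16 := by
    have := excl_U _ ((S2_smul a h1 h2 24 16 y).1 hy)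
    rw [← h3, dot_smul] at this
    rcases this with h | h | h
    · exact Or.inl h
    · exact Or.inr h
    · exact absurd (eq_of_dot32 hx.1 hy.1 h).symm hne
  rcases key with h | h
  · exact tr3 h1 h2 h3 hS8 t112 y ⟨hy.1, hy.2.1, hy.2.2, h⟩ y' ⟨hy'.1, hy'.2.1, hy'.2.2, hdd ▸ h⟩
  · exact tr3 h1 h2 h3 hS16 t162 y ⟨hy.1, hy.2.1, hy.2.2, h⟩ y' ⟨hy'.1, hy'.2.1, hy'.2.2, hdd ▸ h⟩

/-- The fixers of the third system. -/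
theorem fixA3 {g : ↥Co0} (hg : g ∈ Fx cAL) : g • bV = bV ∧ g • bW = bW ∧ g • bQ = bQ :=
  ⟨fx_bv hg gV_fv (by simp [cAL]), fx_bv hg gW_fv (by simp [cAL]), fx_bv hg gQ_fv (by simp [cAL])⟩

theorem t330 : ∀ x ∈ S3 bV 0 bW 16 bQ 0, ∀ y ∈ S3 bV 0 bW 16 bQ 0, ∃ g : ↥Co0, g • bV = bV ∧ g • bW = bW ∧ g • bQ = bQ ∧ g • x = y := by
  intro x hx y hy
  obtain ⟨g, hg, e⟩ := trans_QS (fun z hz => oE_reach hz) hx hy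
  exact ⟨g, (fixA3 hg).1, (fixA3 hg).2.1, (fixA3 hg).2.2, e⟩

theorem t462 : ∀ x ∈ S3 bV 0 bW 16 bQ 16, ∀ y ∈ S3 bV 0 bW 16 bQ 16, ∃ g : ↥Co0, g • bV = bV ∧ g • bW = bW ∧ g • bQ = bQ ∧ g • x = y := by
  intro x hx y hy
  obtain ⟨g, hg, e⟩ := trans_QS (fun z hz => oF_reach hz) hx hy
  exact ⟨g, (fixA3 hg).1, (fixA3 hg).2.1, (fixA3 hg).2.2, e⟩

theorem t1232 : ∀ x ∈ S3 bV 0 bW 16 bQ 8, ∀ y ∈ S3 bV 0 bW 16 bQ 8, ∃ g : ↥Co0, g • bV = bV ∧ g • bW = bW ∧ g • bQ = bQ ∧ g • x = y := by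
  intro x hx y hy
  obtain ⟨g, hg, e⟩ := trans_QS (fun z hz => oG_reach hz) hx hy
  exact ⟨g, (fixA3 hg).1, (fixA3 hg).2.1, (fixA3 hg).2.2, e⟩

theorem oE_mem : bv oE_fv ∈ S3 bV 0 bW 16 bQ 0 := by
  show sqNorm (dec oES) = 32 ∧ dotInt (dec gVS) (dec oES) = 0 ∧ dotInt (dec gWS) (dec oES) = 16 ∧ dotInt (dec gQS) (dec oES) = 0
  decide +kernel

theorem oF_mem : bv oF_fv ∈ S3 bV 0 bW 16 bQ 16 := by
  show sqNorm (dec oFS) = 32 ∧ dotInt (dec gVS) (dec oFS) = 0 ∧ dotInt (dec gWS) (dec oFS) = 16 ∧ dotInt (dec gQS) (dec oFS) = 16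
  decide +kernel

theorem oG_mem : bv oG_fv ∈ S3 bV 0 bW 16 bQ 8 := by
  show sqNorm (dec oGS) = 32 ∧ dotInt (dec gVS) (dec oGS) = 0 ∧ dotInt (dec gWS) (dec oGS) = 16 ∧ dotInt (dec gQS) (dec oGS) = 8
  decide +kernel

theorem s1634_main (v w : ↥leechLattice) (hv : sqNorm v.1 = 32) (hw : sqNorm w.1 = 32) (hd : dotInt v.1 w.1 = -8) :
    (S2 v 0 w 16).ncard = 2025 ∧ (∀ x ∈ S2 v 0 w 16, ∀ y ∈ S2 v 0 w 16, ∃ g : ↥Co0, g • v = v ∧ g • w = w ∧ g • x = y) ∧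
      ∀ x ∈ S2 v 0 w 16, ∃ y₁ ∈ S2 v 0 w 16, ∃ y₂ ∈ S2 v 0 w 16, ∃ y₃ ∈ S2 v 0 w 16,
        (MulAction.orbit ↥(MulAction.stabilizer ↥Co0 v ⊓ MulAction.stabilizer ↥Co0 w ⊓ MulAction.stabilizer ↥Co0 x) y₁).ncard = 330 ∧
        (MulAction.orbit ↥(MulAction.stabilizer ↥Co0 v ⊓ MulAction.stabilizer ↥Co0 w ⊓ MulAction.stabilizer ↥Co0 x) y₂).ncard = 462 ∧
        (MulAction.orbit ↥(MulAction.stabilizer ↥Co0 v ⊓ MulAction.stabilizer ↥Co0 w ⊓ MulAction.stabilizer ↥Co0 x) y₃).ncard = 1232 := by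
  obtain ⟨a, h1, h2⟩ := pair_trans_b v w bV bW hv hw bV_norm bW_norm hd bVW_dot
  have hS := S2_smul a h1 h2 0 16
  refine ⟨(ncard_smul a hS).trans oB_card, tr2 h1 h2 hS t2025, ?_⟩
  intro x hx
  obtain ⟨b, b1, b2, b3⟩ := m22_frame v w x hv hw hd hx
  obtain ⟨y₁, hy₁, e₁, c₁⟩ := orbit3_ex b1 b2 b3 oE_card oE_mem t330
  obtain ⟨y₂, hy₂, e₂, c₂⟩ := orbit3_ex b1 b2 b3 oF_card oF_mem t462
  obtain ⟨y₃, hy₃, e₃, c₃⟩ := orbit3_ex b1 b2 b3 oG_card oG_mem t1232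
  refine ⟨y₁, ⟨hy₁.1, hy₁.2.1, hy₁.2.2.1⟩, y₂, ⟨hy₂.1, hy₂.2.1, hy₂.2.2.1⟩, y₃, ⟨hy₃.1, hy₃.2.1, hy₃.2.2.1⟩, ?_, ?_, ?_⟩
  · rw [e₁, c₁]
  · rw [e₂, c₂]
  · rw [e₃, c₃]

end Cfsg.Agent.Lib.LeechP
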