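/-
The stabiliser of two minimal vectors of inner product minus eight is simple.
-/
import Cfsg.Prelude.Def_Sporadic
import Cfsg.Agent.Lib.LeechP.SimpC
import Cfsg.Agent.Lib.LeechP.Stb
import Cfsg.Agent.Lib.LeechP.Fam.McL
import Cfsg.Agent.Lib.LeechP.Fam.McC

set_option autoImplicit false

namespace Cfsg.Agent.Lib.LeechP

open Cfsg Cfsg.Agent.Lib.Golay Cfsg.Agent.Lib.Golay.Leech Cfsg.Agent.Lib.LeechX Cfsg.Agent.Lib.M24 MulAction

/-- The group of the base pair. -/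
abbrev Gm : Subgroup ↥Co0 := stb bV ⊓ stb bW

theorem mem_Gm_iff {g : ↥Co0} : g ∈ Gm ↔ g ∈ Fx cML := by
  constructor
  · rintro ⟨h1, h2⟩ m hm hd
    simp only [cML, List.mem_cons, List.not_mem_nil, or_false] at hm
    rcases hm with rfl | rfl
    · exact h1
    · exact h2
  · intro h
    exact ⟨(fixM h).1, (fixM h).2.1⟩

theorem Gm_fix {g : ↥Co0} (hg : g ∈ Gm) : g • bU = bU := by
  rw [← bU_eq, smul_add', show g • bV = bV from hg.1, show g • bW = bW from hg.2]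

theorem mem_Gu_iff {g : ↥Co0} : g ∈ Fx cUL ↔ g ∈ Gm ∧ g • bP = bP := by
  constructor
  · intro h
    have h1 : g • bV = bV := fx_bv h gV_fv (by simp [cUL])
    have h2 : g • bW = bW := fx_bv h gW_fv (by simp [cUL])
    have h3 : g • bP = bP := fx_bv h gP_fv (by simp [cUL])
    exact ⟨⟨h1, h2⟩, h3⟩
  · rintro ⟨⟨h1, h2⟩, h3⟩ m hm hd
    simp only [cUL, List.mem_cons, List.not_mem_nil, or_false] at hm
    rcases hm with rfl | rfl | rfl
    · exact h1
    · exact h2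
    · exact h3

theorem orbit_W : orbit ↥(stb bV) bW = S1 bV (-8) := by
  apply orbit_eq_of (S := S1 bV (-8)) (y := bW) (mem_S1.2 ⟨bW_norm, bVW_dot⟩)
  · intro h hh z hz
    exact (S1_smul h hh (-8) z).1 hz
  · intro z hz
    obtain ⟨g, h1, h2⟩ := co2_trans_b bV bW z bV_norm bW_norm hz.1 bVW_dot hz.2
    exact ⟨g, h1, h2⟩

theorem ncard_S1 (v : ↥leechLattice) (d : ℤ) : (S1 v d).ncard = (dotSet v.1 d).ncard := by
  rw [ncard_coe]
  congr 1
  ext z
  constructor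
  · rintro ⟨t, ht, rfl⟩
    exact ⟨t.2, ht.1, ht.2⟩
  · rintro ⟨h1, h2, h3⟩
    exact ⟨⟨z, h1⟩, ⟨h2, h3⟩, rfl⟩

theorem card_Gm : Nat.card ↥Gm = 898128000 := by
  have h1 := card_inf_stb (stb bV) bW
  rw [card_stb_min bV bV_norm, orbit_W, ncard_S1, (census bV.1 bV.2 bV_norm).2.1] at h1
  have e : (898128000 : ℕ) * 47104 = 42305421312000 := by norm_num
  exact Nat.eq_of_mul_eq_mul_right (by norm_num) (h1.trans e.symm)

theorem orbit_P : orbit ↥Gm bP = S2 bU 24 bV 16 := by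
  apply orbit_eq_of bP_mem
  · intro h hh z hz
    exact (S2_smul h (Gm_fix hh) hh.1 24 16 z).1 hz
  · intro z hz
    obtain ⟨g, hg, e⟩ := trans_QS (fun z hz => oA_reach hz) bP_mem hz
    exact ⟨g, mem_Gm_iff.2 hg, e⟩

theorem card_Gu : Nat.card ↥(Fx cUL) = 3265920 := by
  have h1 := card_inf_stb Gm bP
  rw [card_Gm, orbit_P] at h1
  have h2 : (S2 bU 24 bV 16).ncard = 275 := oA_card
  rw [h2] at h1
  have h3 : Gm ⊓ stb bP = Fx cUL := by
    ext g
    rw [mem_Gu_iff]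
    rfl
  rw [h3] at h1
  have e : (3265920 : ℕ) * 275 = 898128000 := by norm_num
  exact Nat.eq_of_mul_eq_mul_right (by norm_num) (h1.trans e.symm)

instance : Nontrivial ↥Gm := by
  apply Finite.one_lt_card_iff_nontrivial.1
  rw [card_Gm]
  norm_num

instance fact11 : Fact (Nat.Prime 11) := ⟨by norm_num⟩
instance fact23 : Fact (Nat.Prime 23) := ⟨by norm_num⟩
instance fact13 : Fact (Nat.Prime 13) := ⟨by norm_num⟩

theorem Gm_simple : IsSimpleGroup ↥Gm := by
  have hΩ : (S2 bU 24 bV 16).ncard = 275 := oA_card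
  refine simple_concrete Gm (p := 11) bP (S2 bU 24 bV 16) orbit_P (by rw [hΩ]; norm_num)
    (by rw [card_Gm]; norm_num) (r := 2) ![S3 bU 24 bV 16 bP 8, S3 bU 24 bV 16 bP 16] ![112, 162] ?_ ?_ ?_ ?_ ?_ ?_ ?_ ?_ ?_ ?_
  · intro i
    fin_cases i
    · exact oC_card
    · exact oD_card
  · intro i
    fin_cases i
    · exact Set.finite_of_ncard_ne_zero (by
        show (S3 bU 24 bV 16 bP 8).ncard ≠ 0
        rw [show (S3 bU 24 bV 16 bP 8).ncard = 112 from oC_card]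
        norm_num)
    · exact Set.finite_of_ncard_ne_zero (by
        show (S3 bU 24 bV 16 bP 16).ncard ≠ 0
        rw [show (S3 bU 24 bV 16 bP 16).ncard = 162 from oD_card]
        norm_num)
  · intro i j hij
    rw [Set.disjoint_left]
    intro x hx hy
    fin_cases i <;> fin_cases j
    · exact hij rfl
    · have h1 : dotInt bP.1 x.1 = 8 := hx.2.2.2
      have h2 : dotInt bP.1 x.1 = 16 := hy.2.2.2
      omega
    · have h1 : dotInt bP.1 x.1 = 16 := hx.2.2.2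
      have h2 : dotInt bP.1 x.1 = 8 := hy.2.2.2
      omega
    · exact hij rfl
  · have h32 := dot_self32 (x := bP) bP_mem.1
    intro i h
    fin_cases i
    · have h1 : dotInt bP.1 bP.1 = 8 := h.2.2.2
      omega
    · have h1 : dotInt bP.1 bP.1 = 16 := h.2.2.2
      omega
  · intro x hx
    rcases excl_U x hx with h | h | h
    · exact Or.inr ⟨0, ⟨hx.1, hx.2.1, hx.2.2, h⟩⟩
    · exact Or.inr ⟨1, ⟨hx.1, hx.2.1, hx.2.2, h⟩⟩
    · exact Or.inl (eq_of_dot32 bP_mem.1 hx.1 h).symm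
  · intro i x hx
    fin_cases i
    · exact ⟨hx.1, hx.2.1, hx.2.2.1⟩
    · exact ⟨hx.1, hx.2.1, hx.2.2.1⟩
  · intro i x hx y hy
    fin_cases i
    · obtain ⟨g, hg, e⟩ := trans_QS (fun z hz => oC_reach hz) hx hy
      exact ⟨g, (mem_Gu_iff.1 hg).1, (mem_Gu_iff.1 hg).2, e⟩
    · obtain ⟨g, hg, e⟩ := trans_QS (fun z hz => oD_reach hz) hx hy
      exact ⟨g, (mem_Gu_iff.1 hg).1, (mem_Gu_iff.1 hg).2, e⟩
  · rw [hΩ]
    decide
  · intro N hN hfix
    rw [Subgroup.eq_bot_iff_forall]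
    intro k hk
    have h0 := chain_end_trivial mc_pool mc_chain (card_Gu.trans mc_prod.symm) (by rw [mc_prod]; norm_num)
    have hk2 : k.1 ∈ Fx (chainEnd cUL mcLv) := by
      intro m hm hd
      rcases mc_seeds m hm with rfl | rfl | ⟨-, h2, h3, h4⟩
      · exact k.2.1
      · exact k.2.2
      · exact hfix k hk ⟨dec m, hd⟩ ⟨h2, h3, h4⟩
    rw [h0, Subgroup.mem_bot] at hk2
    exact Subtype.ext hk2
  · intro K hK h g hg
    have hle : Fx cUL ≤ K.map Gm.subtype := by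
      apply chain_le mc_pool mc_chain (card_Gu.trans mc_prod.symm)
      intro y hy ho
      have hyG := mem_Gm_iff.2 hy
      exact ⟨⟨y, hyG⟩, h _ (by rw [Subgroup.orderOf_mk]; exact ho), rfl⟩
    obtain ⟨l, hl, e⟩ := hle (mem_Gu_iff.2 ⟨g.2, hg⟩)
    have : l = g := Subtype.ext e
    rwa [← this]

/-- Conjugation between subgroups. -/
def conjEquiv (a : ↥Co0) (A B : Subgroup ↥Co0) (h : ∀ g, g ∈ A ↔ a * g * a⁻¹ ∈ B) : ↥A ≃* ↥B where
  toFun g := ⟨a * g.1 * a⁻¹, (h g.1).1 g.2⟩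
  invFun g := ⟨a⁻¹ * g.1 * a, (h _).2 (by
    have e : a * (a⁻¹ * g.1 * a) * a⁻¹ = g.1 := by group
    rw [e]
    exact g.2)⟩
  left_inv g := by
    apply Subtype.ext
    show a⁻¹ * (a * g.1 * a⁻¹) * a = g.1
    group
  right_inv g := by
    apply Subtype.ext
    show a * (a⁻¹ * g.1 * a) * a⁻¹ = g.1
    group
  map_mul' x y := by
    apply Subtype.ext
    show a * (x.1 * y.1) * a⁻¹ = a * x.1 * a⁻¹ * (a * y.1 * a⁻¹)
    group

theorem conj_stb_iff {a g : ↥Co0} {v V : ↥leechLattice} (h : a • v = V) : g • v = v ↔ (a * g * a⁻¹) • V = V := by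
  rw [← h]
  simp only [mul_smul, inv_smul_smul]
  constructor
  · intro e
    rw [e]
  · intro e
    exact smul_left_cancel a e

/-- The transport of the base case. -/
theorem s0404_main (v w : ↥leechLattice) (hv : sqNorm v.1 = 32) (hw : sqNorm w.1 = 32) (hd : dotInt v.1 w.1 = -8) :
    IsMcL ↥(stb v ⊓ stb w) := by
  obtain ⟨a, h1, h2⟩ := pair_trans_b v w bV bW hv hw bV_norm bW_norm hd bVW_dot
  have e := conjEquiv a (stb v ⊓ stb w) Gm (fun g =>
    and_congr (conj_stb_iff h1) (conj_stb_iff h2))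
  have := Gm_simple
  exact ⟨e.isSimpleGroup, (Nat.card_congr e.toEquiv).trans card_Gm⟩

end Cfsg.Agent.Lib.LeechP
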