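/-
The stabiliser of two vectors of sum of squares 48 with inner product minus 32 is simple.
-/
import Cfsg.Agent.Lib.LeechP.Fam.SimpM
import Cfsg.Agent.Lib.LeechP.Fam.HS
import Cfsg.Agent.Lib.LeechP.Fam.HsC
import Cfsg.Agent.Lib.LeechP.Fam.J105
import Cfsg.Agent.Lib.LeechP.Fam.J672
import Cfsg.Agent.Lib.LeechP.Fam.J322
import Cfsg.Agent.Lib.LeechP.Fam.EJ

set_option autoImplicit false

namespace Cfsg.Agent.Lib.LeechP

open Cfsg Cfsg.Agent.Lib.Golay Cfsg.Agent.Lib.Golay.Leech Cfsg.Agent.Lib.LeechX Cfsg.Agent.Lib.M24 MulAction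

/-- The group of the base pair. -/
abbrev Gh : Subgroup ↥Co0 := stb bU ⊓ stb bH

theorem mem_Gh_iff {g : ↥Co0} : g ∈ Gh ↔ g ∈ Fx cHL := by
  constructor
  · rintro ⟨h1, h2⟩ m hm hd
    have h3 : g • bK = bK := by
      rw [← bK_eq, smul_sub', smul_neg', show g • bH = bH from h2, show g • bU = bU from h1]
    simp only [cHL, List.mem_cons, List.not_mem_nil, or_false] at hm
    rcases hm with rfl | rfl | rfl
    · exact h1
    · exact h2
    · exact h3
  · intro h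
    exact ⟨(fixH h).1, (fixH h).2.1⟩

theorem Gh_eq : stb bU ⊓ stb bK = Gh := by
  ext g
  constructor
  · rintro ⟨h1, h2⟩
    refine ⟨h1, ?_⟩
    have h3 : g • bU = bU := h1
    have h4 : g • bK = bK := h2
    have h5 := smul_sub' g (-bH) bU
    rw [bK_eq, h4, h3, smul_neg'] at h5
    have h6 : bK + bU = - (g • bH) := by
      rw [h5]
      abel
    have h7 : bK + bU = - bH := by
      rw [← bK_eq]
      abel
    rw [h7] at h6
    exact (neg_injective h6).symm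
  · intro h
    exact ⟨h.1, (fixH (mem_Gh_iff.1 h)).2.2⟩

theorem orbit_H : orbit ↥(stb bU) bH = S1 bU (-16) := by
  apply orbit_eq_of (S := S1 bU (-16)) (y := bH) bH_mem
  · intro h hh z hz
    exact (S1_smul h hh (-16) z).1 hz
  · intro z hz
    obtain ⟨g, h1, h2⟩ := t11178 bH bH_mem z hz
    exact ⟨g, h1, h2⟩

theorem card_Gh : Nat.card ↥Gh = 44352000 := by
  have h1 := card_inf_stb (stb bU) bH
  have h2 : (S1 bU (-16)).ncard = 11178 := oH_card
  rw [card_stb_48 bU bU_norm, orbit_H, h2] at h1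
  have e : (44352000 : ℕ) * 11178 = 495766656000 := by norm_num
  exact Nat.eq_of_mul_eq_mul_right (by norm_num) (h1.trans e.symm)

/-- The base point. -/
abbrev bJ : ↥leechLattice := bv oJ_fv

theorem bJ_mem : bJ ∈ S2 bU (-16) bH 16 := by
  show sqNorm (dec oJS) = 32 ∧ dotInt (dec gUS) (dec oJS) = -16 ∧ dotInt (dec gHS) (dec oJS) = 16
  decide +kernel

theorem mem_Gj_iff {g : ↥Co0} : g ∈ Fx cJL ↔ g ∈ Gh ∧ g • bJ = bJ := by
  constructor
  · intro h
    have h1 : g • bU = bU := fx_bv h gU_fv (by simp [cJL])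
    have h2 : g • bH = bH := fx_bv h gH_fv (by simp [cJL])
    have h3 : g • bJ = bJ := fx_bv h oJ_fv (by simp [cJL])
    exact ⟨⟨h1, h2⟩, h3⟩
  · rintro ⟨h0, h3⟩ m hm hd
    have h1 := fixH (mem_Gh_iff.1 h0)
    simp only [cJL, List.mem_cons, List.not_mem_nil, or_false] at hm
    rcases hm with rfl | rfl | rfl | rfl
    · exact h1.1
    · exact h1.2.1
    · exact h1.2.2
    · exact h3

theorem orbit_J : orbit ↥Gh bJ = S2 bU (-16) bH 16 := by
  apply orbit_eq_of bJ_mem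
  · intro h hh z hz
    exact (S2_smul h hh.1 hh.2 (-16) 16 z).1 hz
  · intro z hz
    obtain ⟨g, hg, e⟩ := trans_QS (fun z hz => oJ_reach hz) bJ_mem hz
    exact ⟨g, mem_Gh_iff.2 hg, e⟩

theorem card_Gj : Nat.card ↥(Fx cJL) = 40320 := by
  have h1 := card_inf_stb Gh bJ
  have h2 : (S2 bU (-16) bH 16).ncard = 1100 := oJ_card
  rw [card_Gh, orbit_J, h2] at h1
  have h3 : Gh ⊓ stb bJ = Fx cJL := by
    ext g
    rw [mem_Gj_iff]
    rfl
  rw [h3] at h1
  have e : (40320 : ℕ) * 1100 = 44352000 := by norm_num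
  exact Nat.eq_of_mul_eq_mul_right (by norm_num) (h1.trans e.symm)

instance : Nontrivial ↥Gh := by
  apply Finite.one_lt_card_iff_nontrivial.1
  rw [card_Gh]
  norm_num

/-- Membership in a search result. -/
def InS (T : BT) (x : GolayPt → ℤ) : Prop := ∃ n, Val n ∧ dec n = x ∧ inT T (saltN n) = true

theorem sp_inT (T : BT) : Sp (fun m => inT T m) (InS T) := by
  intro n hn
  constructor
  · intro h
    exact ⟨n, hn, rfl, h⟩
  · rintro ⟨n', hn', e, h⟩
    rw [← dec_inj hn' hn e]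
    exact h

/-- The property of the points at inner product 16 with the base point. -/
abbrev Q16 (x : GolayPt → ℤ) : Prop := dotInt (dec gUS) x = -16 ∧ dotInt (dec gHS) x = 16 ∧ dotInt (dec oJS) x = 16

theorem oU_sp : Sp oUTs Q16 :=
  sp_tA (sp_tD gU_fv 0 16 (by norm_num)) (sp_tA (sp_tD gH_fv 16 0 (by norm_num)) (sp_tD oJ_fv 16 0 (by norm_num)))

/-- The four suborbits. -/
abbrev hP0 : Set ↥leechLattice := QS (fun x => Q16 x ∧ InS oRT x)
abbrev hP1 : Set ↥leechLattice := QS (fun x => Q16 x ∧ ¬ InS oRT x)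
abbrev hP2 : Set ↥leechLattice := QS (fun x => dotInt (dec gUS) x = -16 ∧ dotInt (dec gHS) x = 16 ∧ dotInt (dec oJS) x = 0)
abbrev hP3 : Set ↥leechLattice := QS (fun x => dotInt (dec gUS) x = -16 ∧ dotInt (dec gHS) x = 16 ∧ dotInt (dec oJS) x = 8)

theorem hP0_card : hP0.ncard = 42 := ncard_QS (sp_tA oU_sp (sp_inT oRT)) oR_cnt
theorem hP1_card : hP1.ncard = 280 := ncard_QS (sp_tA oU_sp (sp_tNot (sp_inT oRT))) oT_cnt

theorem hP0_reach {x : ↥leechLattice} (hx : x ∈ hP0) : ∃ g ∈ Fx cJL, g • bv oR_fv = x := by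
  obtain ⟨n, hn, e, h⟩ := hx.2.2
  obtain ⟨g, hg, he⟩ := reach_of_sys (x0 := bv oR_fv) (n0 := oRS) (fuel := 10) cJ_sys oR_le oR_fv.val rfl hn h
  exact ⟨g, hg, Subtype.ext (he.trans e)⟩

theorem hP1_reach {x : ↥leechLattice} (hx : x ∈ hP1) : ∃ g ∈ Fx cJL, g • bv oT_fv = x :=
  reach_QS cJ_sys oT_le oT_fv.val rfl rfl (sp_tA oU_sp (sp_tNot (sp_inT oRT))) oT_scan hx

theorem Gh_simple : IsSimpleGroup ↥Gh := by
  have hΩ : (S2 bU (-16) bH 16).ncard = 1100 := oJ_card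
  refine simple_concrete Gh (p := 11) bJ (S2 bU (-16) bH 16) orbit_J (by rw [hΩ]; norm_num)
    (by rw [card_Gh]; norm_num) (r := 4) ![hP0, hP1, hP2, hP3] ![42, 280, 105, 672] ?_ ?_ ?_ ?_ ?_ ?_ ?_ ?_ ?_ ?_
  · intro i
    fin_cases i
    · exact hP0_card
    · exact hP1_card
    · exact oP_card
    · exact oQ_card
  · intro i
    have h1 : ∀ {S : Set ↥leechLattice} {n : ℕ}, S.ncard = n → n ≠ 0 → S.Finite := fun e h =>
      Set.finite_of_ncard_ne_zero (by rw [e]; exact h)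
    fin_cases i
    · exact h1 hP0_card (by norm_num)
    · exact h1 hP1_card (by norm_num)
    · exact h1 oP_card (by norm_num)
    · exact h1 oQ_card (by norm_num)
  · intro i j hij
    rw [Set.disjoint_left]
    intro x hx hy
    have ne16_0 : ∀ {d : ℤ}, d = 16 → d = 0 → False := by intro d h1 h2; omega
    have ne16_8 : ∀ {d : ℤ}, d = 16 → d = 8 → False := by intro d h1 h2; omega
    have ne0_8 : ∀ {d : ℤ}, d = 0 → d = 8 → False := by intro d h1 h2; omega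
    fin_cases i <;> fin_cases j
    · exact hij rfl
    · exact hy.2.2 hx.2.2
    · exact ne16_0 hx.2.1.2.2 hy.2.2.2
    · exact ne16_8 hx.2.1.2.2 hy.2.2.2
    · exact hx.2.2 hy.2.2
    · exact hij rfl
    · exact ne16_0 hx.2.1.2.2 hy.2.2.2
    · exact ne16_8 hx.2.1.2.2 hy.2.2.2
    · exact ne16_0 hy.2.1.2.2 hx.2.2.2
    · exact ne16_0 hy.2.1.2.2 hx.2.2.2
    · exact hij rfl
    · exact ne0_8 hx.2.2.2 hy.2.2.2
    · exact ne16_8 hy.2.1.2.2 hx.2.2.2
    · exact ne16_8 hy.2.1.2.2 hx.2.2.2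
    · exact ne0_8 hy.2.2.2 hx.2.2.2
    · exact hij rfl
  · have h32 : dotInt (dec oJS) (dec oJS) = 32 := dot_self32 (x := bJ) bJ_mem.1
    intro i h
    fin_cases i
    · have h1 : dotInt (dec oJS) (dec oJS) = 16 := h.2.1.2.2
      omega
    · have h1 : dotInt (dec oJS) (dec oJS) = 16 := h.2.1.2.2
      omega
    · have h1 : dotInt (dec oJS) (dec oJS) = 0 := h.2.2.2
      omega
    · have h1 : dotInt (dec oJS) (dec oJS) = 8 := h.2.2.2
      omega
  · intro x hx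
    have h1 : dotInt (dec oJS) x.1 = 16 ∨ dotInt (dec oJS) x.1 = 0 ∨ dotInt (dec oJS) x.1 = 8 ∨ dotInt (dec oJS) x.1 = 32 := by
      by_contra h
      push Not at h
      exact eJ_none x ⟨hx.1, hx.2.1, hx.2.2, h.1, h.2.1, h.2.2.1, h.2.2.2⟩
    rcases h1 with h | h | h | h
    · by_cases hR : InS oRT x.1
      · exact Or.inr ⟨0, ⟨hx.1, ⟨hx.2.1, hx.2.2, h⟩, hR⟩⟩
      · exact Or.inr ⟨1, ⟨hx.1, ⟨hx.2.1, hx.2.2, h⟩, hR⟩⟩
    · exact Or.inr ⟨2, ⟨hx.1, hx.2.1, hx.2.2, h⟩⟩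
    · exact Or.inr ⟨3, ⟨hx.1, hx.2.1, hx.2.2, h⟩⟩
    · exact Or.inl (eq_of_dot32 bJ_mem.1 hx.1 h).symm
  · intro i x hx
    fin_cases i
    · exact ⟨hx.1, hx.2.1.1, hx.2.1.2.1⟩
    · exact ⟨hx.1, hx.2.1.1, hx.2.1.2.1⟩
    · exact ⟨hx.1, hx.2.1, hx.2.2.1⟩
    · exact ⟨hx.1, hx.2.1, hx.2.2.1⟩
  · intro i x hx y hy
    fin_cases i
    · obtain ⟨g, hg, e⟩ := trans_QS (fun z hz => hP0_reach hz) hx hy
      exact ⟨g, (mem_Gj_iff.1 hg).1, (mem_Gj_iff.1 hg).2, e⟩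
    · obtain ⟨g, hg, e⟩ := trans_QS (fun z hz => hP1_reach hz) hx hy
      exact ⟨g, (mem_Gj_iff.1 hg).1, (mem_Gj_iff.1 hg).2, e⟩
    · obtain ⟨g, hg, e⟩ := trans_QS (fun z hz => oP_reach hz) hx hy
      exact ⟨g, (mem_Gj_iff.1 hg).1, (mem_Gj_iff.1 hg).2, e⟩
    · obtain ⟨g, hg, e⟩ := trans_QS (fun z hz => oQ_reach hz) hx hy
      exact ⟨g, (mem_Gj_iff.1 hg).1, (mem_Gj_iff.1 hg).2, e⟩
  · rw [hΩ]
    decide
  · intro N hN hfix
    rw [Subgroup.eq_bot_iff_forall]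
    intro k hk
    have h0 := chain_end_trivial hc_pool hc_chain (card_Gj.trans hc_prod.symm) (by rw [hc_prod]; norm_num)
    have hk2 : k.1 ∈ Fx (chainEnd cJL hcLv) := by
      have h1 := fixH (mem_Gh_iff.1 k.2)
      intro m hm hd
      rcases hc_seeds m hm with rfl | rfl | rfl | ⟨-, h2, h3, h4⟩
      · exact h1.1
      · exact h1.2.1
      · exact h1.2.2
      · exact hfix k hk ⟨dec m, hd⟩ ⟨h2, h3, h4⟩
    rw [h0, Subgroup.mem_bot] at hk2
    exact Subtype.ext hk2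
  · intro K hK h g hg
    have hle : Fx cJL ≤ K.map Gh.subtype := by
      apply chain_le hc_pool hc_chain (card_Gj.trans hc_prod.symm)
      intro y hy ho
      have hyG := mem_Gh_iff.2 hy
      exact ⟨⟨y, hyG⟩, h _ (by rw [Subgroup.orderOf_mk]; exact ho), rfl⟩
    obtain ⟨l, hl, e⟩ := hle (mem_Gj_iff.2 ⟨g.2, hg⟩)
    have : l = g := Subtype.ext e
    rwa [← this]

/-- The transport of the base case. -/
theorem s0405_main (v w : ↥leechLattice) (hv : sqNorm v.1 = 48) (hw : sqNorm w.1 = 48) (hd : dotInt v.1 w.1 = -32) :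
    IsHS ↥(stb v ⊓ stb w) := by
  obtain ⟨a, h1, h2⟩ := hs_frame v w hv hw hd
  have e := conjEquiv a (stb v ⊓ stb w) Gh (fun g => by
    rw [← Gh_eq]
    exact and_congr (conj_stb_iff h1) (conj_stb_iff h2))
  have := Gh_simple
  exact ⟨e.isSimpleGroup, (Nat.card_congr e.toEquiv).trans card_Gh⟩

end Cfsg.Agent.Lib.LeechP
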