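/-
The stabiliser of a vector of sum of squares 48 is simple.
-/
import Cfsg.Agent.Lib.LeechP.Fam.SimpH
import Cfsg.Agent.Lib.LeechP.Fam.Cert

set_option autoImplicit false

namespace Cfsg.Agent.Lib.LeechP

open Cfsg Cfsg.Agent.Lib.Golay Cfsg.Agent.Lib.Golay.Leech Cfsg.Agent.Lib.LeechX Cfsg.Agent.Lib.M24 MulAction

theorem fin_of_ncard {S : Set ↥leechLattice} {n : ℕ} (e : S.ncard = n) (h : n ≠ 0) : S.Finite :=
  Set.finite_of_ncard_ne_zero (by rw [e]; exact h)

theorem fixC1 {g : ↥Co0} (hg : g ∈ Fx cCL) : g • bU = bU := fx_bv hg gU_fv (by simp [cCL])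

theorem stbU_simple : IsSimpleGroup ↥(stb bU) := by
  have := Gh_simple
  have hΩ : (S1 bU (-16)).ncard = 11178 := oH_card
  obtain ⟨y, x, u, hy, hy1, hx, hu, hxo, huo, hyxu⟩ := cert_exists c3_pool (goodL_of _ c3_good) c3_gen c3_ne
  refine simple_from_sub (stb bU) (p := 23) bH (S1 bU (-16)) orbit_H (by rw [hΩ]; norm_num)
    (by rw [card_stb_48 bU bU_norm]; norm_num) (r := 4)
    ![S2 bU (-16) bH (-8), S2 bU (-16) bH 16, S2 bU (-16) bH 0, S2 bU (-16) bH 8] ![352, 1100, 4125, 5600]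
    ?_ ?_ ?_ ?_ ?_ ?_ ?_ ?_ Gh (fun g => Iff.rfl) (mem_Gh_iff.2 hy) hy1 (fixC1 hx) (fixC1 hu) hxo huo hyxu ?_
  · intro i
    fin_cases i
    · exact oI_card
    · exact oJ_card
    · exact oK_card
    · exact oL_card
  · intro i
    fin_cases i
    · exact fin_of_ncard (show (S2 bU (-16) bH (-8)).ncard = 352 from oI_card) (by norm_num)
    · exact fin_of_ncard (show (S2 bU (-16) bH 16).ncard = 1100 from oJ_card) (by norm_num)
    · exact fin_of_ncard (show (S2 bU (-16) bH 0).ncard = 4125 from oK_card) (by norm_num)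
    · exact fin_of_ncard (show (S2 bU (-16) bH 8).ncard = 5600 from oL_card) (by norm_num)
  · intro i j hij
    rw [Set.disjoint_left]
    intro x hx hy
    have key : ∀ {c d : ℤ}, c ≠ d → dotInt bH.1 x.1 = c → dotInt bH.1 x.1 = d → False := by
      intro c d hcd h1 h2
      exact hcd (h1.symm.trans h2)
    fin_cases i <;> fin_cases j
    · exact hij rfl
    · exact key (by norm_num) hx.2.2 hy.2.2
    · exact key (by norm_num) hx.2.2 hy.2.2
    · exact key (by norm_num) hx.2.2 hy.2.2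
    · exact key (by norm_num) hx.2.2 hy.2.2
    · exact hij rfl
    · exact key (by norm_num) hx.2.2 hy.2.2
    · exact key (by norm_num) hx.2.2 hy.2.2
    · exact key (by norm_num) hx.2.2 hy.2.2
    · exact key (by norm_num) hx.2.2 hy.2.2
    · exact hij rfl
    · exact key (by norm_num) hx.2.2 hy.2.2
    · exact key (by norm_num) hx.2.2 hy.2.2
    · exact key (by norm_num) hx.2.2 hy.2.2
    · exact key (by norm_num) hx.2.2 hy.2.2
    · exact hij rfl
  · have h32 := dot_self32 (x := bH) bH_mem.1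
    intro i h
    fin_cases i
    · have h1 : dotInt bH.1 bH.1 = -8 := h.2.2
      omega
    · have h1 : dotInt bH.1 bH.1 = 16 := h.2.2
      omega
    · have h1 : dotInt bH.1 bH.1 = 0 := h.2.2
      omega
    · have h1 : dotInt bH.1 bH.1 = 8 := h.2.2
      omega
  · intro x hx
    rcases excl_H x hx with h | h | h | h | h
    · exact Or.inr ⟨0, ⟨hx.1, hx.2, h⟩⟩
    · exact Or.inr ⟨1, ⟨hx.1, hx.2, h⟩⟩
    · exact Or.inr ⟨2, ⟨hx.1, hx.2, h⟩⟩
    · exact Or.inr ⟨3, ⟨hx.1, hx.2, h⟩⟩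
    · exact Or.inl (eq_of_dot32 bH_mem.1 hx.1 h).symm
  · intro i x hx
    fin_cases i <;> exact ⟨hx.1, hx.2.1⟩
  · intro i x hx y hy
    fin_cases i
    · obtain ⟨g, g1, g2, g3⟩ := t352 x hx y hy
      exact ⟨g, g1, g2, g3⟩
    · obtain ⟨g, g1, g2, g3⟩ := t1100 x hx y hy
      exact ⟨g, g1, g2, g3⟩
    · obtain ⟨g, g1, g2, g3⟩ := t4125 x hx y hy
      exact ⟨g, g1, g2, g3⟩
    · obtain ⟨g, g1, g2, g3⟩ := t5600 x hx y hy
      exact ⟨g, g1, g2, g3⟩
  · rw [hΩ]
    decide +kernel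
  · have h1 : 1 < (S2 bU (-16) bH (-8)).ncard := by
      rw [show (S2 bU (-16) bH (-8)).ncard = 352 from oI_card]
      norm_num
    obtain ⟨z, hz, z', hz', hne⟩ := (Set.one_lt_ncard (fin_of_ncard (show (S2 bU (-16) bH (-8)).ncard = 352 from oI_card) (by norm_num))).1 h1
    obtain ⟨g, g1, g2, g3⟩ := t352 z hz z' hz'
    exact ⟨g, ⟨g1, g2⟩, z, ⟨hz.1, hz.2.1⟩, fun e => hne (e.symm.trans g3)⟩

/-- The transport of the base case. -/
theorem s0403_main (v : ↥leechLattice) (hv : sqNorm v.1 = 48) : IsCo3 ↥(stb v) := by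
  obtain ⟨a, h1⟩ := trans48 v bU hv bU_norm
  have e := conjEquiv a (stb v) (stb bU) (fun g => conj_stb_iff h1)
  have := stbU_simple
  exact ⟨e.isSimpleGroup, card_stb_48 v hv⟩

end Cfsg.Agent.Lib.LeechP
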