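/-
The stabiliser of a minimal vector is simple.
-/
import Cfsg.Agent.Lib.LeechP.Fam.SimpCo3
import Cfsg.Agent.Lib.LeechP.Fam.K275
import Cfsg.Agent.Lib.LeechP.Fam.K2025
import Cfsg.Agent.Lib.LeechP.Fam.K7128
import Cfsg.Agent.Lib.LeechP.Fam.K15400
import Cfsg.Agent.Lib.LeechP.Fam.K22275
import Cfsg.Agent.Lib.LeechP.Fam.EK

set_option autoImplicit false

namespace Cfsg.Agent.Lib.LeechP

open Cfsg Cfsg.Agent.Lib.Golay Cfsg.Agent.Lib.Golay.Leech Cfsg.Agent.Lib.LeechX Cfsg.Agent.Lib.M24 MulAction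

/-- The inner products of the parts. -/
def dK : Fin 5 → ℤ := ![-16, 16, -8, 8, 0]

theorem dK_inj : Function.Injective dK := by decide

/-- The parts for the stabiliser of a minimal vector. -/
abbrev kP (i : Fin 5) : Set ↥leechLattice := S2 bV (-8) bW (dK i)

theorem kP_card : ∀ i, (kP i).ncard = (![275, 2025, 7128, 15400, 22275] : Fin 5 → ℕ) i := by
  intro i
  fin_cases i
  · exact oa_card
  · exact ob_card
  · exact oc_card
  · exact od_card
  · exact oe_card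

theorem kP_tr : ∀ i, ∀ x ∈ kP i, ∀ y ∈ kP i, ∃ g ∈ Fx cML, g • x = y := by
  intro i x hx y hy
  fin_cases i
  · exact trans_QS (fun z hz => oa_reach hz) hx hy
  · exact trans_QS (fun z hz => ob_reach hz) hx hy
  · exact trans_QS (fun z hz => oc_reach hz) hx hy
  · exact trans_QS (fun z hz => od_reach hz) hx hy
  · exact trans_QS (fun z hz => oe_reach hz) hx hy

theorem fixV1 {g : ↥Co0} (hg : g ∈ Fx c2Lg) : g • bV = bV := fx_bv hg gV_fv (by simp [c2Lg])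

theorem stbV_simple : IsSimpleGroup ↥(stb bV) := by
  have := Gm_simple
  have hΩ : (S1 bV (-8)).ncard = 47104 := by
    rw [ncard_S1]
    exact (census bV.1 bV.2 bV_norm).2.1
  obtain ⟨y, x, u, hy, hy1, hx, hu, hxo, huo, hyxu⟩ := cert_exists c2_pool (goodL_of _ c2_good) c2_gen c2_ne
  refine simple_from_sub (stb bV) (p := 23) bW (S1 bV (-8)) orbit_W (by rw [hΩ]; norm_num)
    (by rw [card_stb_min bV bV_norm]; norm_num) (r := 5) kP ![275, 2025, 7128, 15400, 22275]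
    kP_card ?_ ?_ ?_ ?_ ?_ ?_ ?_ Gm (fun g => Iff.rfl) (mem_Gm_iff.2 hy) hy1 (fixV1 hx) (fixV1 hu) hxo huo hyxu ?_
  · intro i
    have h1 := kP_card i
    refine fin_of_ncard h1 ?_
    fin_cases i <;> simp
  · intro i j hij
    rw [Set.disjoint_left]
    intro x hx hy
    exact hij (dK_inj (hx.2.2.symm.trans hy.2.2))
  · have h32 := dot_self32 (x := bW) bW_norm
    intro i h
    have h1 : dotInt bW.1 bW.1 = dK i := h.2.2
    fin_cases i
    · have h2 : dotInt bW.1 bW.1 = -16 := h1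
      omega
    · have h2 : dotInt bW.1 bW.1 = 16 := h1
      omega
    · have h2 : dotInt bW.1 bW.1 = -8 := h1
      omega
    · have h2 : dotInt bW.1 bW.1 = 8 := h1
      omega
    · have h2 : dotInt bW.1 bW.1 = 0 := h1
      omega
  · intro x hx
    have h1 : dotInt bW.1 x.1 = -16 ∨ dotInt bW.1 x.1 = 16 ∨ dotInt bW.1 x.1 = -8 ∨ dotInt bW.1 x.1 = 8 ∨
        dotInt bW.1 x.1 = 0 ∨ dotInt bW.1 x.1 = 32 := by
      by_contra h
      push Not at h
      exact eK_none x ⟨hx.1, hx.2, h.1, h.2.1, h.2.2.1, h.2.2.2.1, h.2.2.2.2.1, h.2.2.2.2.2⟩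
    rcases h1 with h | h | h | h | h | h
    · exact Or.inr ⟨0, ⟨hx.1, hx.2, h⟩⟩
    · exact Or.inr ⟨1, ⟨hx.1, hx.2, h⟩⟩
    · exact Or.inr ⟨2, ⟨hx.1, hx.2, h⟩⟩
    · exact Or.inr ⟨3, ⟨hx.1, hx.2, h⟩⟩
    · exact Or.inr ⟨4, ⟨hx.1, hx.2, h⟩⟩
    · exact Or.inl (eq_of_dot32 bW_norm hx.1 h).symm
  · intro i x hx
    exact ⟨hx.1, hx.2.1⟩
  · intro i x hx y hy
    obtain ⟨g, hg, e⟩ := kP_tr i x hx y hy
    have h1 := mem_Gm_iff.2 hg
    exact ⟨g, h1.1, h1.2, e⟩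
  · rw [hΩ]
    decide +kernel
  · have hc : (kP 0).ncard = 275 := kP_card 0
    have h1 : 1 < (kP 0).ncard := by
      rw [hc]
      norm_num
    obtain ⟨z, hz, z', hz', hne⟩ := (Set.one_lt_ncard (fin_of_ncard hc (by norm_num))).1 h1
    obtain ⟨g, hg, e⟩ := kP_tr 0 z hz z' hz'
    exact ⟨g, mem_Gm_iff.2 hg, z, ⟨hz.1, hz.2.1⟩, fun e' => hne (e'.symm.trans e)⟩

/-- The transport of the base case. -/
theorem s0402_main (v : ↥leechLattice) (hv : sqNorm v.1 = 32) : IsCo2 ↥(stb v) := by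
  obtain ⟨a, h1⟩ := min_trans v bV hv bV_norm
  have e := conjEquiv a (stb v) (stb bV) (fun g => conj_stb_iff h1)
  have := stbV_simple
  exact ⟨e.isSimpleGroup, card_stb_min v hv⟩

end Cfsg.Agent.Lib.LeechP
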