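/-
The automorphism group of the lattice modulo its centre is simple.
-/
import Cfsg.Agent.Lib.LeechP.Fam.SimpCo2
import Cfsg.Agent.Lib.LeechP.Fam.Cert1

set_option autoImplicit false

namespace Cfsg.Agent.Lib.LeechP

open Cfsg Cfsg.Agent.Lib.Golay Cfsg.Agent.Lib.Golay.Leech Cfsg.Agent.Lib.LeechX Cfsg.Agent.Lib.M24 MulAction

theorem dot_neg_right (v x : ↥leechLattice) : dotInt v.1 (-x).1 = - dotInt v.1 x.1 := by
  show dotInt v.1 (-x.1) = _
  simp only [dotInt, Pi.neg_apply, mul_neg, Finset.sum_neg_distrib]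

theorem norm_neg' (x : ↥leechLattice) : sqNorm (-x).1 = sqNorm x.1 := by
  show sqNorm (-x.1) = _
  rw [sqNorm_neg]

theorem neg_mem_S1 {v x : ↥leechLattice} {d : ℤ} (h : x ∈ S1 v d) : -x ∈ S1 v (-d) :=
  ⟨(norm_neg' x).trans h.1, by
    show dotInt v.1 (-x).1 = -d
    rw [dot_neg_right]
    exact congrArg _ h.2⟩

theorem ncard_S1_neg (v : ↥leechLattice) (d : ℤ) : (S1 v (-d)).ncard = (S1 v d).ncard := by
  apply ncard_smul negAut
  intro x
  constructor
  · intro h
    have := neg_mem_S1 h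
    rwa [neg_neg] at this
  · intro h
    have := neg_mem_S1 h
    exact (neg_neg x) ▸ this

/-- All minimal vectors. -/
abbrev minO : Set ↥leechLattice := {x | sqNorm x.1 = 32}

theorem orbit_bV : orbit ↥Co0 bV = minO := by
  ext x
  constructor
  · rintro ⟨g, rfl⟩
    exact (norm_smul g bV).trans bV_norm
  · intro h
    obtain ⟨g, e⟩ := min_trans bV x bV_norm h
    exact ⟨g, e⟩

theorem minO_card : minO.ncard = 196560 := by
  rw [← orbit_bV, orbit_co0 bV_norm (fun y hy => min_trans bV y bV_norm hy)]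
  exact ncard_norm32

/-- The parts of the minimal vectors. -/
abbrev cP : Fin 4 → Set ↥leechLattice :=
  ![{-bV}, S1 bV (-16) ∪ S1 bV 16, S1 bV (-8) ∪ S1 bV 8, S1 bV 0]

theorem S1_disj (v : ↥leechLattice) {c d : ℤ} (h : c ≠ d) : Disjoint (S1 v c) (S1 v d) := by
  rw [Set.disjoint_left]
  intro x h1 h2
  exact h (h1.2.symm.trans h2.2)

theorem S1_c16 : (S1 bV (-16)).ncard = 4600 := by
  rw [ncard_S1]
  exact (census bV.1 bV.2 bV_norm).1

theorem S1_c8 : (S1 bV (-8)).ncard = 47104 := by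
  rw [ncard_S1]
  exact (census bV.1 bV.2 bV_norm).2.1

theorem S1_c0 : (S1 bV 0).ncard = 93150 := by
  rw [ncard_S1]
  exact (census bV.1 bV.2 bV_norm).2.2

theorem S1_c16' : (S1 bV 16).ncard = 4600 := by
  rw [← ncard_S1_neg]
  exact S1_c16

theorem S1_c8' : (S1 bV 8).ncard = 47104 := by
  rw [← ncard_S1_neg]
  exact S1_c8

theorem cP_card : ∀ i, (cP i).ncard = (![1, 9200, 94208, 93150] : Fin 4 → ℕ) i := by
  intro i
  have f1 := fin_of_ncard S1_c16 (by norm_num)
  have f2 := fin_of_ncard S1_c16' (by norm_num)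
  have f3 := fin_of_ncard S1_c8 (by norm_num)
  have f4 := fin_of_ncard S1_c8' (by norm_num)
  fin_cases i
  · exact Set.ncard_singleton _
  · show (S1 bV (-16) ∪ S1 bV 16).ncard = 9200
    rw [Set.ncard_union_eq (S1_disj bV (by norm_num)) f1 f2, S1_c16, S1_c16']
  · show (S1 bV (-8) ∪ S1 bV 8).ncard = 94208
    rw [Set.ncard_union_eq (S1_disj bV (by norm_num)) f3 f4, S1_c8, S1_c8']
  · exact S1_c0

theorem dot_self_bV : dotInt bV.1 bV.1 = 32 := dot_self32 bV_norm

theorem dot_neg_bV : dotInt bV.1 (-bV).1 = -32 := by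
  rw [dot_neg_right, dot_self_bV]

theorem cP_mem {x : ↥leechLattice} {i : Fin 4} (h : x ∈ cP i) : sqNorm x.1 = 32 ∧
    (i = 0 ∧ dotInt bV.1 x.1 = -32 ∨ i = 1 ∧ (dotInt bV.1 x.1 = -16 ∨ dotInt bV.1 x.1 = 16) ∨
      i = 2 ∧ (dotInt bV.1 x.1 = -8 ∨ dotInt bV.1 x.1 = 8) ∨ i = 3 ∧ dotInt bV.1 x.1 = 0) := by
  fin_cases i
  · have e : x = -bV := h
    subst e
    exact ⟨(norm_neg' bV).trans bV_norm, Or.inl ⟨rfl, dot_neg_bV⟩⟩
  · rcases h with h | h
    · exact ⟨h.1, Or.inr (Or.inl ⟨rfl, Or.inl h.2⟩)⟩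
    · exact ⟨h.1, Or.inr (Or.inl ⟨rfl, Or.inr h.2⟩)⟩
  · rcases h with h | h
    · exact ⟨h.1, Or.inr (Or.inr (Or.inl ⟨rfl, Or.inl h.2⟩))⟩
    · exact ⟨h.1, Or.inr (Or.inr (Or.inl ⟨rfl, Or.inr h.2⟩))⟩
  · exact ⟨h.1, Or.inr (Or.inr (Or.inr ⟨rfl, h.2⟩))⟩

theorem cP_cov (x : ↥leechLattice) (hx : sqNorm x.1 = 32) : x = bV ∨ ∃ i, x ∈ cP i := by
  by_cases h1 : x = bV
  · exact Or.inl h1
  by_cases h2 : x = -bV
  · exact Or.inr ⟨0, h2⟩
  right
  have h1' : bV.1 - x.1 ≠ 0 := fun e => h1 (Subtype.ext (sub_eq_zero.1 e).symm)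
  have h2' : bV.1 + x.1 ≠ 0 := fun e => h2 (Subtype.ext (eq_neg_of_add_eq_zero_right e))
  have h3 := norm_ge' (leechLattice.sub_mem bV.2 x.2) h1'
  have h4 := norm_ge' (leechLattice.add_mem bV.2 x.2) h2'
  rw [sqNorm_sub, bV_norm, hx] at h3
  rw [sqNorm_add, bV_norm, hx] at h4
  obtain ⟨k, hk⟩ := eight_dvd_dot bV x
  have hk1 : k = -2 ∨ k = -1 ∨ k = 0 ∨ k = 1 ∨ k = 2 := by omega
  rcases hk1 with rfl | rfl | rfl | rfl | rfl
  · exact ⟨1, Or.inl ⟨hx, hk.trans (by norm_num)⟩⟩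
  · exact ⟨2, Or.inl ⟨hx, hk.trans (by norm_num)⟩⟩
  · exact ⟨3, ⟨hx, hk.trans (by norm_num)⟩⟩
  · exact ⟨2, Or.inr ⟨hx, hk.trans (by norm_num)⟩⟩
  · exact ⟨1, Or.inr ⟨hx, hk.trans (by norm_num)⟩⟩

theorem cP_arith : ∀ I : Finset (Fin 4), (1 + ∑ i ∈ I, (![1, 9200, 94208, 93150] : Fin 4 → ℕ) i) ∣ 196560 → 0 ∈ I →
    I = {0} ∨ I = Finset.univ := by
  decide +kernel

/-- The dichotomy for normal subgroups containing the central involution. -/
theorem co1_dich (K : Subgroup ↥Co0) (hK : K.Normal) (hneg : negAut ∈ K) : K ≤ Subgroup.center ↥Co0 ∨ K = ⊤ := by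
  have hB_neg : ∀ x ∈ orbit ↥K bV, -x ∈ orbit ↥K bV := by
    rintro _ ⟨k, rfl⟩
    exact ⟨⟨negAut, hneg⟩ * k, rfl⟩
  have hB_stb : ∀ g : ↥Co0, g • bV = bV → ∀ x ∈ orbit ↥K bV, g • x ∈ orbit ↥K bV :=
    fun g hg x hx => orbit_normal_inv K hg hx
  have hsub : orbit ↥K bV ⊆ minO := by
    rintro _ ⟨k, rfl⟩
    exact (norm_smul k.1 bV).trans bV_norm
  have hcl : ∀ i, ∀ x ∈ cP i, ∀ y ∈ cP i, x ∈ orbit ↥K bV → y ∈ orbit ↥K bV := by
    have step : ∀ d : ℤ, (∀ x ∈ S1 bV d, ∀ y ∈ S1 bV d, ∃ g : ↥Co0, g • bV = bV ∧ g • x = y) →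
        ∀ x ∈ S1 bV d ∪ S1 bV (-d), ∀ y ∈ S1 bV d ∪ S1 bV (-d), x ∈ orbit ↥K bV → y ∈ orbit ↥K bV := by
      intro d htr x hx y hy hxB
      have hx' : ∃ z ∈ S1 bV d, z ∈ orbit ↥K bV := by
        rcases hx with h | h
        · exact ⟨x, h, hxB⟩
        · refine ⟨-x, ?_, hB_neg x hxB⟩
          have := neg_mem_S1 h
          rwa [neg_neg] at this
      obtain ⟨z, hz, hzB⟩ := hx'
      rcases hy with h | h
      · obtain ⟨g, h1, h2⟩ := htr z hz y h
        rw [← h2]
        exact hB_stb g h1 z hzB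
      · have h3 := neg_mem_S1 h
        rw [neg_neg] at h3
        obtain ⟨g, h1, h2⟩ := htr z hz (-y) h3
        have h4 := hB_neg _ (hB_stb g h1 z hzB)
        rwa [h2, neg_neg] at h4
    have e16 : ∀ x ∈ S1 bV (-16), ∀ y ∈ S1 bV (-16), ∃ g : ↥Co0, g • bV = bV ∧ g • x = y :=
      fun x hx y hy => co2_trans_a bV x y bV_norm hx.1 hy.1 hx.2 hy.2
    have e8 : ∀ x ∈ S1 bV (-8), ∀ y ∈ S1 bV (-8), ∃ g : ↥Co0, g • bV = bV ∧ g • x = y :=
      fun x hx y hy => co2_trans_b bV x y bV_norm hx.1 hy.1 hx.2 hy.2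
    intro i x hx y hy hxB
    fin_cases i
    · have e1 : x = -bV := hx
      have e2 : y = -bV := hy
      rwa [e2, ← e1]
    · exact step (-16) e16 x (by simpa using hx) y (by simpa using hy) hxB
    · exact step (-8) e8 x (by simpa using hx) y (by simpa using hy) hxB
    · obtain ⟨g, h1, h2⟩ := co2_trans_c bV x y bV_norm hx.1 hy.1 hx.2 hy.2
      rw [← h2]
      exact hB_stb g h1 x hxB
  have hf : ∀ i, (cP i).Finite := by
    intro i
    refine fin_of_ncard (cP_card i) ?_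
    fin_cases i <;> simp
  have hd : ∀ i j, i ≠ j → Disjoint (cP i) (cP j) := by
    intro i j hij
    rw [Set.disjoint_left]
    intro x h1 h2
    obtain ⟨-, h3⟩ := cP_mem h1
    obtain ⟨-, h4⟩ := cP_mem h2
    rcases h3 with ⟨rfl, h3⟩ | ⟨rfl, h3⟩ | ⟨rfl, h3⟩ | ⟨rfl, h3⟩ <;>
      rcases h4 with ⟨rfl, h4⟩ | ⟨rfl, h4⟩ | ⟨rfl, h4⟩ | ⟨rfl, h4⟩ <;>
        first
          | exact absurd rfl hij
          | omega
  have hna : ∀ i, bV ∉ cP i := by
    intro i h
    obtain ⟨-, h3⟩ := cP_mem h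
    rw [dot_self_bV] at h3
    omega
  obtain ⟨I, e1, e2⟩ := block_of_parts cP ![1, 9200, 94208, 93150] cP_card hf hd hna (Ω := minO)
    (fun x hx => cP_cov x hx) (orbit ↥K bV) (mem_orbit_self bV) hsub hcl
  have hfo : Finite (orbit ↥Co0 bV) := (Set.finite_range _).to_subtype
  have hdv : (orbit ↥K bV).ncard ∣ 196560 := by
    have h := orbit_normal_dvd K bV
    rwa [orbit_bV, minO_card] at h
  rw [e2] at hdv
  have h0 : (0 : Fin 4) ∈ I := by
    have h1 : -bV ∈ orbit ↥K bV := hB_neg bV (mem_orbit_self bV)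
    rw [e1] at h1
    simp only [Set.mem_union, Set.mem_singleton_iff, Set.mem_iUnion, exists_prop] at h1
    rcases h1 with h1 | ⟨i, hi, h1⟩
    · have h2 := dot_neg_bV
      rw [h1, dot_self_bV] at h2
      omega
    · obtain ⟨-, h3⟩ := cP_mem h1
      rw [dot_neg_bV] at h3
      rcases h3 with ⟨rfl, h3⟩ | ⟨rfl, h3⟩ | ⟨rfl, h3⟩ | ⟨rfl, h3⟩
      · exact hi
      · omega
      · omega
      · omega
  rcases cP_arith I hdv h0 with rfl | rfl
  · -- the orbit is the pair
    left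
    have hpair : ∀ k ∈ K, k • bV = bV ∨ k • bV = -bV := by
      intro k hk
      have h1 : k • bV ∈ orbit ↥K bV := ⟨⟨k, hk⟩, rfl⟩
      rw [e1] at h1
      have h2 : k • bV = -bV ∨ k • bV = bV := by simpa using h1
      exact h2.symm
    have hall : ∀ k ∈ K, ∀ x : ↥leechLattice, sqNorm x.1 = 32 → k • x = x ∨ k • x = -x := by
      intro k hk x hx
      obtain ⟨h, rfl⟩ := min_trans bV x bV_norm hx
      have h2 : h⁻¹ * k * h ∈ K := by
        have := hK.conj_mem k hk h⁻¹
        simpa using this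
      have e : k • h • bV = h • (h⁻¹ * k * h) • bV := by
        simp [mul_smul]
      rcases hpair _ h2 with h3 | h3
      · left
        rw [e, h3]
      · right
        rw [e, h3, smul_neg']
    have hfree : ∀ y ∈ K, y • bV = bV → y = 1 := by
      intro y hy hf
      by_contra hne
      have hle : stb bV ≤ K := by
        have := stbV_simple
        apply le_of_simple (y := y) _ hf hy hne
        intro g _ k hk
        exact hK.conj_mem k hk g
      have h1 : 1 < (S1 bV (-8)).ncard := by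
        rw [S1_c8]
        norm_num
      have hWm : bW ∈ S1 bV (-8) := ⟨bW_norm, bVW_dot⟩
      haveI : Finite ↑(S1 bV (-8)) := (fin_of_ncard S1_c8 (by norm_num)).to_subtype
      obtain ⟨z, hz, hne2⟩ := (Set.one_lt_ncard_iff_nontrivial.1 h1).exists_ne bW
      obtain ⟨g, g1, g2⟩ := co2_trans_b bV bW z bV_norm bW_norm hz.1 bVW_dot hz.2
      rcases hall g (hle g1) bW bW_norm with h3 | h3
      · exact hne2 (g2.symm.trans h3)
      · rw [g2] at h3
        have h4 : dotInt bV.1 z.1 = -8 := hz.2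
        rw [h3, dot_neg_right, bVW_dot] at h4
        omega
    intro k hk
    rcases hpair k hk with h | h
    · rw [hfree k hk h]
      exact Subgroup.one_mem _
    · have h1 : negAut * k = 1 := by
        apply hfree _ (K.mul_mem hneg hk)
        rw [mul_smul, h]
        exact neg_neg bV
      have h2 : k = negAut := by
        calc k = (negAut * negAut) * k := by rw [negAut_sq, one_mul]
          _ = negAut * (negAut * k) := mul_assoc _ _ _
          _ = negAut := by rw [h1, mul_one]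
      rw [h2]
      exact Subgroup.mem_center_iff.2 fun g => negAut_comm g
  · -- the orbit is everything
    right
    have hall : orbit ↥K bV = minO := by
      have := block_ends (Ω := minO) cP bV_norm (fun x hx => cP_cov x hx)
        (fun i x hx => (cP_mem hx).1) Finset.univ (Or.inr rfl)
      rcases this with h | h
      · exfalso
        rw [← e1] at h
        have h2 := minO_card
        have h3 : (orbit ↥K bV).ncard = 196560 := by
          rw [e2]
          decide +kernel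
        rw [h, Set.ncard_singleton] at h3
        omega
      · rw [e1, h]
    have h13 : 13 ∣ Nat.card ↥K := by
      have h2 : (orbit ↥K bV).ncard ∣ Nat.card ↥K := by
        rw [← index_stabilizer]
        exact Subgroup.index_dvd_card _
      rw [hall, minO_card] at h2
      exact Dvd.dvd.trans (by norm_num) h2
    have hpp : ¬ 13 ^ 2 ∣ Nat.card ↥Co0 := by
      rw [card_Co0]
      norm_num
    obtain ⟨y, x, u, hy, hy1, -, -, hxo, huo, hyxu⟩ := cert_exists c1_pool (goodL_of _ c1_good) c1_gen c1_ne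
    have hxK := mem_of_prime_order K h13 hpp hxo
    have huK := mem_of_prime_order K h13 hpp huo
    have hyK : y ∈ K := by
      have : y = u * x⁻¹ := by
        rw [← hyxu]
        group
      rw [this]
      exact K.mul_mem huK (K.inv_mem hxK)
    have hle : stb bV ≤ K := by
      have := stbV_simple
      apply le_of_simple (y := y) _ (fixV1 hy) hyK hy1
      intro g _ k hk
      exact hK.conj_mem k hk g
    rw [eq_top_iff]
    intro g _
    have h4 : g • bV ∈ orbit ↥K bV := by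
      rw [hall]
      exact (norm_smul g bV).trans bV_norm
    obtain ⟨k, hk⟩ := h4
    have h5 : k.1⁻¹ * g ∈ stb bV := by
      show (k.1⁻¹ * g) • bV = bV
      rw [mul_smul, inv_smul_eq_iff]
      exact hk.symm
    have h6 := K.mul_mem k.2 (hle h5)
    simpa using h6

/-- The quotient. -/
theorem s0399_main : IsCo1 (↥Co0 ⧸ Subgroup.center ↥Co0) := by
  have hcard : Nat.card (↥Co0 ⧸ Subgroup.center ↥Co0) = 4157776806543360000 := by
    have h := Subgroup.card_eq_card_quotient_mul_card_subgroup (Subgroup.center ↥Co0)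
    rw [card_Co0, card_center] at h
    have e : (4157776806543360000 : ℕ) * 2 = 8315553613086720000 := by norm_num
    exact Nat.eq_of_mul_eq_mul_right (by norm_num) (h.symm.trans e.symm)
  refine ⟨?_, hcard⟩
  have : Nontrivial (↥Co0 ⧸ Subgroup.center ↥Co0) := by
    apply Finite.one_lt_card_iff_nontrivial.1
    rw [hcard]
    norm_num
  refine ⟨fun N hN => ?_⟩
  have hK : (N.comap (QuotientGroup.mk' (Subgroup.center ↥Co0))).Normal := hN.comap _
  have hneg : negAut ∈ N.comap (QuotientGroup.mk' (Subgroup.center ↥Co0)) := by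
    rw [Subgroup.mem_comap]
    have : QuotientGroup.mk' (Subgroup.center ↥Co0) negAut = 1 :=
      (QuotientGroup.eq_one_iff _).2 (Subgroup.mem_center_iff.2 fun g => negAut_comm g)
    rw [this]
    exact N.one_mem
  rcases co1_dich _ hK hneg with h | h
  · left
    rw [Subgroup.eq_bot_iff_forall]
    intro q hq
    obtain ⟨g, rfl⟩ := QuotientGroup.mk_surjective q
    exact (QuotientGroup.eq_one_iff _).2 (h hq)
  · right
    rw [eq_top_iff]
    intro q _
    obtain ⟨g, rfl⟩ := QuotientGroup.mk_surjective q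
    have : g ∈ N.comap (QuotientGroup.mk' (Subgroup.center ↥Co0)) := by
      rw [h]
      exact Subgroup.mem_top _
    exact this

end Cfsg.Agent.Lib.LeechP
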